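import Cfsg.Agent.H88.SgPolyA

/-! A linear map preserving a non-trivial union of fibres of the norm normalises the field. -/

set_option autoImplicit false

namespace Cfsg.Agent.H88.SgP

open Finset Module MvPolynomial Cfsg.Agent.H77.Sg

universe u v

/-- The cyclic successor. -/
def nx {f : ℕ} (k : Fin f) : Fin f := ⟨(k + 1) % f, Nat.mod_lt _ k.pos⟩

theorem nx_inj {f : ℕ} {k l : Fin f} (h : nx k = nx l) : k = l :=
  Fin.ext (Nat.ModEq.eq_of_lt_of_lt
    (Nat.ModEq.add_right_cancel' 1 (congrArg Fin.val h)) k.2 l.2)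

theorem exists_drop {f : ℕ} {P : Fin f → Prop} (h1 : ∃ k, P k) (h2 : ∃ k, ¬ P k) :
    ∃ k, P k ∧ ¬ P (nx k) := by
  by_contra h
  push Not at h
  obtain ⟨k, hk⟩ := h1
  obtain ⟨l, hl⟩ := h2
  have : ∀ t : ℕ, P ⟨(k + t) % f, Nat.mod_lt _ k.pos⟩ := fun t => by
    induction t with
    | zero => simpa [Nat.mod_eq_of_lt k.2] using hk
    | succ t ih =>
      have := h _ ih
      simpa [nx, add_assoc] using this
  have h3 := this (l + f - k)
  have e : ((k : ℕ) + (l + f - k)) % f = l := by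
    rw [show (k : ℕ) + (l + f - k) = l + f by omega, Nat.add_mod_right, Nat.mod_eq_of_lt l.2]
  exact hl (by simpa only [e] using h3)

/-- The cyclic successor of a position. -/
def sc {n f : ℕ} (m : Fin n × Fin f) : Fin n × Fin f :=
  finProdFinEquiv.symm (nx (finProdFinEquiv m))

theorem sc_val {n f : ℕ} (m : Fin n × Fin f) :
    (finProdFinEquiv (sc m) : ℕ) = (finProdFinEquiv m + 1) % (n * f) := by
  rw [sc, Equiv.apply_symm_apply]; rfl

theorem sc_inj {n f : ℕ} {m m' : Fin n × Fin f} (h : sc m = sc m') : m = m' :=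
  finProdFinEquiv.injective (nx_inj (finProdFinEquiv.symm.injective h))

theorem sc_snd {n f : ℕ} (m : Fin n × Fin f) : (sc m).2 = nx m.2 := by
  refine Fin.ext ?_
  show ((m.2 : ℕ) + f * m.1 + 1) % (n * f) % f = (m.2 + 1) % f
  rw [Nat.mod_mul_left_mod, add_right_comm, Nat.add_mul_mod_self_left]

theorem blk {n f p : ℕ} {ν μ : Fin n × Fin f → ℕ} {m m' : Fin n × Fin f}
    (h : ∀ i, ν i + (if i = m' then 1 else 0) = μ i + if i = m then p else 0) (l : Fin f) :
    ∑ j, ν (j, l) + (if l = m'.2 then 1 else 0) = ∑ j, μ (j, l) + if l = m.2 then p else 0 := by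
  have k : ∀ (m : Fin n × Fin f) (c : ℕ),
      ∑ j, (if (j, l) = m then c else 0) = if l = m.2 then c else 0 := fun m c => by
    obtain ⟨a, b⟩ := m
    by_cases e : l = b <;> simp [e]
  rw [← k, ← k, ← sum_add_distrib, ← sum_add_distrib]
  exact sum_congr rfl fun j _ => h _

theorem core (ha : PolyAlgStmt.{v}) {K : Type v} [Field K] [Finite K] {p n f : ℕ} [Fact p.Prime]
    [CharP K p] (hK : Nat.card K = p ^ (n * f)) (n4 : 4 ≤ n) (a : Fin f → Fin n → Fin n → K)
    (E : Finset (Fin f → ℕ)) (b : (Fin f → ℕ) → K)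
    (H : ∀ x : K, x ≠ 0 → ∑ c ∈ E, b c *
      (∏ k, (∏ i, ∑ j, a k i j * x ^ p ^ (finProdFinEquiv (j, k) : ℕ)) ^ c k -
        ∏ k, (∏ j : Fin n, x ^ p ^ (finProdFinEquiv (j, k) : ℕ)) ^ c k) = 0)
    (ne : E.Nonempty)
    (hE : ∀ c ∈ E, b c ≠ 0 ∧ (∀ k, c k < p) ∧ (∃ k, c k ≠ 0) ∧ ∃ k, c k + 1 ≠ p) :
    ∃ k, ∀ i j j', j ≠ j' → a k i j * a k i j' = 0 := by
  classical
  have hp : 2 ≤ p := (Fact.out : p.Prime).two_le
  have nz : ∀ c ∈ E, ∀ ν : Fin f → Fin n →₀ ℕ, (∀ k, ∑ j, ν k j = n * c k) → ∃ m, fl ν m ≠ 0 := by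
    intro c hc ν h
    obtain ⟨k, hk⟩ := (hE c hc).2.2.1
    obtain ⟨j, -, hj⟩ := exists_ne_zero_of_sum_ne_zero
      (show ∑ j, ν k j ≠ 0 by rw [h]; exact mul_ne_zero (by omega) hk)
    exact ⟨(j, k), hj⟩
  have tot : ∀ (c : Fin f → ℕ) (ν : Fin f → Fin n →₀ ℕ), (∀ k, ∑ j, ν k j = n * c k) →
      ∑ m, fl ν m = n * ∑ k, c k := fun c ν h => by
    rw [sum_fl, mul_sum]; exact sum_congr rfl fun k _ => h k
  have red : ∀ c ∈ E, (∀ c' ∈ E, ∑ k, c' k ≤ ∑ k, c k) → ∀ ν₀ : Fin f → Fin n →₀ ℕ,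
      (∀ k j, ν₀ k j < p) → (∀ k, ∑ j, ν₀ k j = n * c k) →
      ∏ k, coeff (ν₀ k) (Lam (a k) (c k)) = ∏ k, if cst n (c k) = ν₀ k then 1 else 0 := by
    intro c hc mx ν₀ r hd
    refine iso _ hK (by omega) a E b H hc (hE c hc).1 ν₀ hd fun ν c' hc' hd' h => ?_
    rcases carry _ hp sc_val (fun m => r m.2 m.1) (nz c hc _ hd) _ (nz c' hc' _ hd') h with
      e | ⟨e, -⟩
    · exact fl_inj e
    · have := Nat.mul_le_mul_left n (mx c' hc')
      have e' : ∑ m, fl ν₀ m + p ≤ ∑ m, fl ν m + 1 := e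
      rw [tot _ _ hd, tot _ _ hd'] at e'
      omega
  have del : ∀ c ∈ E, (∀ c' ∈ E, ∑ k, c' k ≤ ∑ k, c k) → ∀ k,
      coeff (cst n (c k)) (Lam (a k) (c k)) ≠ 0 := by
    intro c hc mx k h
    have := red c hc mx (fun k => cst n (c k)) (fun k _ => (hE c hc).2.1 k) fun k => by simp
    rw [prod_eq_zero (mem_univ k) h] at this
    simp at this
  have van : ∀ c ∈ E, (∀ c' ∈ E, ∑ k, c' k ≤ ∑ k, c k) → ∀ k (ν : Fin n →₀ ℕ), (∃ j, ν j ≠ c k) →
      (∏ l, coeff (Function.update (fun l => cst n (c l)) k ν l) (Lam (a l) (c l)) =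
        ∏ l, if cst n (c l) = Function.update (fun l => cst n (c l)) k ν l then 1 else 0) →
      coeff ν (Lam (a k) (c k)) = 0 := by
    intro c hc mx k ν ⟨j, hj⟩ h
    rw [prod_eq_zero (mem_univ k) (f := fun l => ite _ _ _) (if_neg fun e => hj (by
      rw [Function.update_self] at e; rw [← e]; rfl))] at h
    obtain ⟨l, -, hl⟩ := prod_eq_zero_iff.1 h
    by_cases e : l = k
    · subst e; rwa [Function.update_self] at hl
    · rw [Function.update_of_ne e] at hl
      exact absurd hl (del c hc mx l)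
  have ud : ∀ (c : Fin f → ℕ) (k : Fin f) (ν : Fin n →₀ ℕ), ∑ j, ν j = n * c k →
      ∀ l, ∑ j, Function.update (fun l => cst n (c l)) k ν l j = n * c l := fun c k ν h l => by
    by_cases e : l = k
    · subst e; rwa [Function.update_self]
    · rw [Function.update_of_ne e]; simp
  by_cases h1 : ∃ c ∈ E, (∀ c' ∈ E, ∑ k, c' k ≤ ∑ k, c k) ∧ ∃ k, 1 ≤ c k ∧ c k + 2 ≤ p
  · obtain ⟨c, hc, mx, k, k1, k2⟩ := h1
    refine ⟨k, ha K p n (c k) (a k) (del c hc mx k) (.inl ⟨k1, k2, fun ν r hd nc => ?_⟩)⟩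
    refine van c hc mx k ν nc (red c hc mx _ (fun l j => ?_) (ud c k ν hd))
    by_cases e : l = k
    · subst e; rw [Function.update_self]; exact r j
    · rw [Function.update_of_ne e]; exact (hE c hc).2.1 l
  have dig : ∀ c ∈ E, (∀ c' ∈ E, ∑ k, c' k ≤ ∑ k, c k) → ∀ k, c k = 0 ∨ c k + 1 = p := by
    intro c hc mx k
    by_contra h
    have := (hE c hc).2.1 k
    exact h1 ⟨c, hc, mx, k, by omega, by omega⟩
  obtain ⟨c, hc, mx⟩ := exists_max_image E (fun c => ∑ k, c k) ne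
  obtain ⟨k, k1, k2⟩ := exists_drop (P := fun k => c k + 1 = p)
    ((hE c hc).2.2.1.imp fun k h => (dig c hc mx k).resolve_left h) (hE c hc).2.2.2
  have k0 : c (nx k) = 0 := (dig c hc mx _).resolve_right k2
  have nk : nx k ≠ k := fun e => k2 (by rw [e]; exact k1)
  refine ⟨k, ha K p n (c k) (a k) (del c hc mx k) (.inr ⟨k1, fun ν j₀ r1 r2 r3 hd => ?_⟩)⟩
  refine van c hc mx k ν ⟨j₀, by omega⟩ ?_
  have hd0 := ud c k ν hd
  set ν₀ := Function.update (fun l => cst n (c l)) k ν with hν₀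
  have v1 : ∀ j, fl ν₀ (j, k) = ν j := fun j => by simp [fl, hν₀]
  have v2 : ∀ m : Fin n × Fin f, m.2 ≠ k → fl ν₀ m = c m.2 := fun m h => by
    simp [fl, hν₀, Function.update_of_ne h]
  let μ : Fin n × Fin f → ℕ := fun i =>
    fl ν₀ i + (if i = sc (j₀, k) then 1 else 0) - if i = (j₀, k) then p else 0
  have rel : ∀ i, fl ν₀ i + (if i = sc (j₀, k) then 1 else 0) =
      μ i + if i = (j₀, k) then p else 0 := fun i => by
    simp only [μ]
    by_cases e : i = (j₀, k)
    · have := v1 j₀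
      rw [← e] at this
      rw [if_pos e]; omega
    · rw [if_neg e]; omega
  have s2 : (sc (j₀, k)).2 = nx k := sc_snd _
  have sk : ∀ i : Fin n × Fin f, i.2 = k → i ≠ sc (j₀, k) := fun i h e => nk (by rw [← s2, ← e, h])
  have mur : ∀ i, μ i < p := fun i => by
    have := rel i
    by_cases e : i.2 = k
    · rw [if_neg (sk i e)] at this
      obtain ⟨j, l⟩ := i
      obtain rfl : l = k := e
      rw [v1] at this
      by_cases e' : j = j₀
      · subst e'; rw [if_pos rfl] at this; omega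
      · have := r3 j e'
        omega
    · rw [v2 i e, if_neg (fun h : i = (j₀, k) => e (by rw [h]))] at this
      have h2 := (hE c hc).2.1 i.2
      split_ifs at this with h
      · rw [h, s2, k0] at this
        rw [h]; omega
      · omega
  have mu1 : ∑ j, μ (j, nx k) = 1 := by
    have := blk rel (nx k)
    have h2 : ∑ j, fl ν₀ (j, nx k) = n * c (nx k) := hd0 _
    rw [h2, k0, if_pos s2.symm, if_neg nk] at this
    omega
  have mu0 : ∃ m, μ m ≠ 0 := by
    obtain ⟨j, -, hj⟩ := exists_ne_zero_of_sum_ne_zero (show ∑ j, μ (j, nx k) ≠ 0 by omega)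
    exact ⟨_, hj⟩
  obtain ⟨c1, c2⟩ := vl_carry _ hp sc_val rel
  refine iso _ hK (by omega) a E b H hc (hE c hc).1 ν₀ hd0 fun ν' c' hc' hd' h => ?_
  have b1 : ∑ j, fl ν' (j, nx k) = n * c' (nx k) := hd' _
  rcases carry _ hp sc_val mur mu0 _ (nz c' hc' _ hd') (h.trans c1) with e | ⟨e1, e2⟩
  · rw [e, mu1] at b1
    have := Nat.eq_one_of_mul_eq_one_right b1.symm
    omega
  have t1 := tot _ _ hd0
  have t2 := tot _ _ hd'
  have t3 := Nat.mul_le_mul_left n (mx c' hc')
  have t4 : n * ∑ k, c' k = n * ∑ k, c k := by omega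
  have t5 := Nat.eq_of_mul_eq_mul_left (by omega) t4
  obtain ⟨m, hm⟩ := e2 (by omega)
  by_cases e : m.2 = k
  · have s3 : (sc m).2 = nx k := by rw [sc_snd, e]
    have q1 := hm (sc m)
    have q2 := rel (sc m)
    rw [if_pos rfl, if_neg (fun h : sc m = m => nk (by rw [← s3, h, e]))] at q1
    rw [v2 _ (by rw [s3]; exact nk), s3, k0] at q2
    have q3 : sc m = sc (j₀, k) := by
      by_contra h
      rw [if_neg h] at q2
      omega
    obtain rfl := sc_inj q3
    exact fl_inj (funext fun i => by have := hm i; have := rel i; omega)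
  · exfalso
    have q := blk hm (nx k)
    rw [b1, mu1, sc_snd, if_neg fun h => e (nx_inj h).symm] at q
    have q4 := Nat.mul_le_mul_right (c' (nx k)) n4
    rcases dig c' hc' (fun c'' h => t5 ▸ mx c'' h) (nx k) with z | z
    · rw [z] at q; omega
    · split_ifs at q <;> omega

theorem exists_interp {F : Type*} [Field F] [Finite F] (h : F → F) : ∃ r : Polynomial F,
    (∀ e, Nat.card F ≤ e + 1 → r.coeff e = 0) ∧ ∀ u, u ≠ 0 →
      h u = ∑ e ∈ range (Nat.card F), r.coeff e * u ^ e := by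
  classical
  have := Fintype.ofFinite F
  have inj : Set.InjOn id ((univ.erase (0 : F) : Finset F) : Set F) := Set.injOn_id _
  have d := Lagrange.degree_interpolate_lt h inj
  rw [card_erase_of_mem (mem_univ _), card_univ, ← Nat.card_eq_fintype_card] at d
  have z : ∀ e, Nat.card F ≤ e + 1 → (Lagrange.interpolate (univ.erase 0) id h).coeff e = 0 :=
    fun e he => Polynomial.coeff_eq_zero_of_degree_lt (d.trans_le (by norm_cast; omega))
  refine ⟨_, z, fun u hu => ?_⟩
  rw [← Polynomial.eval_eq_sum_range' (lt_of_le_of_lt (Polynomial.natDegree_le_iff_coeff_eq_zero.2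
    fun e (he : Nat.card F - 1 < e) => z e (by omega)) (by have := Nat.card_pos (α := F); omega))]
  exact (Lagrange.eval_interpolate_at_node h inj (mem_erase.2 ⟨hu, mem_univ _⟩)).symm

/-- **POLY** -/
theorem poly (ha : PolyAlgStmt.{v}) : PolyStmt.{u, v} := by
  intro F K _ _ _ _ _ n4 g A hA ⟨a₀, a1, a2⟩ ⟨b₀, b1, b2⟩
  classical
  have := Fintype.ofFinite F
  obtain ⟨p, hc⟩ := CharP.exists F
  obtain ⟨⟨f, f0⟩, pp, hq⟩ := FiniteField.card F p
  have : Fact p.Prime := ⟨pp⟩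
  have : CharP K p := charP_of_injective_algebraMap (algebraMap F K).injective p
  rw [← Nat.card_eq_fintype_card, PNat.mk_coe] at hq
  have hK : Nat.card K = p ^ (finrank F K * f) := by
    rw [Module.natCard_eq_pow_finrank (K := F), hq, ← pow_mul, mul_comm]
  have lin : ∀ i : Fin (finrank F K), ∃ a : Fin (finrank F K) → K,
      ∀ x, g x ^ Nat.card F ^ (i : ℕ) = ∑ j, a j * x ^ Nat.card F ^ (j : ℕ) := fun i =>
    exists_lin
      { toFun := fun x => g x ^ Nat.card F ^ (i : ℕ)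
        map_add' := fun x y => by rw [map_add, hq, ← pow_mul, add_pow_char_pow]
        map_smul' := fun c x => by
          rw [map_smul, smul_pow, Nat.card_eq_fintype_card, FiniteField.pow_card_pow]; rfl }
  choose a hg using lin
  obtain ⟨r, r0, hr⟩ := exists_interp fun u : F => if u ∈ A then (1 : F) else 0
  let dg : Fin (p ^ f) → Fin f → ℕ := fun e k => finFunctionFinEquiv.symm e k
  have vd : ∀ e, ∑ k : Fin f, dg e k * p ^ (k : ℕ) = e := fun e => by
    rw [← finFunctionFinEquiv_apply, Equiv.apply_symm_apply]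
  have di : Function.Injective dg := fun e e' h => Fin.ext (by rw [← vd, h, vd])
  have nrm : ∀ (y : K) (c : Fin f → ℕ), ∏ k : Fin f,
      (∏ i : Fin (finrank F K), (y ^ Nat.card F ^ (i : ℕ)) ^ p ^ (k : ℕ)) ^ c k =
        algebraMap F K (Algebra.norm F y) ^ ∑ k : Fin f, c k * p ^ (k : ℕ) := fun y c => by
    rw [← prod_pow_eq_pow_sum, FiniteField.algebraMap_norm_eq_prod_pow, prod_range]
    exact prod_congr rfl fun k _ => by rw [prod_pow, ← pow_mul, mul_comm]
  have pw : ∀ (x : K) (j : Fin (finrank F K)) (k : Fin f),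
      x ^ p ^ (finProdFinEquiv (j, k) : ℕ) = (x ^ Nat.card F ^ (j : ℕ)) ^ p ^ (k : ℕ) :=
    fun x j k => by rw [hq, ← pow_mul, ← pow_mul, ← pow_add, add_comm]; rfl
  refine Exists.elim (core ha hK n4 (fun k i j => a i j ^ p ^ (k : ℕ))
    ((univ.filter fun e : Fin (p ^ f) => r.coeff e ≠ 0 ∧ (e : ℕ) ≠ 0).image dg)
    (fun c => algebraMap F K (r.coeff (∑ k : Fin f, c k * p ^ (k : ℕ)))) (fun x hx => ?_) ?_ ?_)
    fun k hk => ?_
  rotate_left 3
  · have i0 : 0 < finrank F K := by omega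
    have h1 : ∃ j₀, ∀ j, j ≠ j₀ → a ⟨0, i0⟩ j = 0 := by
      by_cases h : ∃ j₀, a ⟨0, i0⟩ j₀ ≠ 0
      · obtain ⟨j₀, h⟩ := h
        exact ⟨j₀, fun j hj => pow_eq_zero_iff (pow_ne_zero _ pp.ne_zero) |>.1
          ((mul_eq_zero.1 (hk ⟨0, i0⟩ j j₀ hj)).resolve_right (pow_ne_zero _ h))⟩
      · push Not at h
        exact ⟨⟨0, i0⟩, fun j _ => h j⟩
    obtain ⟨j₀, h1⟩ := h1
    have h2 : ∀ x, g x = a ⟨0, i0⟩ j₀ * x ^ Nat.card F ^ (j₀ : ℕ) := fun x => by
      have := hg ⟨0, i0⟩ x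
      rwa [pow_zero, pow_one, Fintype.sum_eq_single j₀ fun j hj => by rw [h1 j hj, zero_mul]]
        at this
    exact fun y => ⟨y ^ Nat.card F ^ (j₀ : ℕ), fun x => by rw [h2, h2, mul_pow]; ring⟩
  · simp only [pw, ← mul_pow, ← sum_pow_char_pow, ← hg, nrm]
    rw [sum_image fun _ _ _ _ h => di h]
    simp only [vd]
    rw [sum_filter_of_ne fun e _ h => ⟨fun z => h (by rw [z, map_zero, zero_mul]),
      fun z => h (by rw [z, pow_zero, pow_zero, sub_self, mul_zero])⟩]
    have n1 : Algebra.norm F x ≠ 0 := Algebra.norm_ne_zero_iff.2 hx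
    have n2 : Algebra.norm F (g x) ≠ 0 := Algebra.norm_ne_zero_iff.2 (by simpa using hx)
    have e := (hr _ n2).symm.trans ((if_congr (hA x hx) rfl rfl).trans (hr _ n1))
    rw [hq, sum_range, sum_range] at e
    simpa only [mul_sub, sum_sub_distrib, sub_eq_zero, map_sum, map_mul, map_pow] using
      congrArg (algebraMap F K) e
  · by_contra h
    rw [not_nonempty_iff_eq_empty, image_eq_empty, filter_eq_empty_iff] at h
    have e : ∀ u : F, ∑ e ∈ range (Nat.card F), r.coeff e * u ^ e = r.coeff 0 := fun u => by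
      rw [sum_eq_single 0 (fun e he e0 => ?_) fun h => absurd (mem_range.2 Nat.card_pos) h,
        pow_zero, mul_one]
      refine mul_eq_zero_of_left (by_contra fun z => ?_) _
      exact h (mem_univ ⟨e, hq ▸ mem_range.1 he⟩) ⟨z, e0⟩
    have e1 := hr _ a2
    have e2 := hr _ b2
    rw [e, if_pos a1] at e1
    rw [e, if_neg b1] at e2
    exact one_ne_zero (e1.trans e2.symm)
  · intro c hc
    obtain ⟨e, he, rfl⟩ := mem_image.1 hc
    obtain ⟨e1, e2⟩ := (mem_filter.1 he).2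
    refine ⟨by rw [vd]; exact (map_ne_zero _).2 e1, fun k => Fin.is_lt _, ?_, ?_⟩
    · by_contra h
      push Not at h
      exact e2 (by rw [← vd]; simp [h])
    · by_contra h
      push Not at h
      refine e1 (r0 _ ?_)
      obtain ⟨d, rfl⟩ := Nat.exists_eq_add_of_le' pp.one_le
      have h' : ∀ k, dg e k = d := fun k => Nat.add_right_cancel (h k)
      rw [hq, ← vd, ← geom_sum_mul_add, sum_range, sum_mul]
      simp only [h', mul_comm d, le_refl]

end Cfsg.Agent.H88.SgP
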