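import Cfsg.Agent.H63.AnDefs2

/-!
# The even and the exotic normal form do not occur
-/

set_option autoImplicit false
set_option linter.unusedSectionVars false

namespace Cfsg.Agent.H88.AnWe

open Cfsg Cfsg.Agent.H63.AN Subgroup
open Cfsg.Agent.H7.AA
open Equiv (swap Perm)
open Equiv.Perm (sign)

universe u

/-- Codes. -/
abbrev Cd : Type := Bool × Bool × Bool × Bool × Bool

/-- The permutation with a given code. -/
def cd (c : Cd) : Perm (Fin 10) :=
  pw c.2.1 ww * pw c.2.2.1 s12 * pw c.2.2.2.1 vv * pw c.2.2.2.2 yy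

def hh : Perm (Fin 10) := swap 1 3 * swap 1 2
def qq : Perm (Fin 10) := swap 6 8 * swap 7 9

def fh : Cd → Cd := fun (u, b, c, d, e) => (u, c, b ^^ c, d, e)
def fp : Cd → Cd := fun (u, b, c, d, e) => (u, b, c, d ^^ e, e)
def fq : Cd → Cd := fun (u, b, c, d, e) => (u, b, c, d, d ^^ e)
def fg (ε κ a : Bool) : Cd → Cd := fun (u, b, c, d, e) =>
  (u ^^ (e && !κ), a ^^ b ^^ (c && ε) ^^ (e && κ), c, a ^^ c ^^ d ^^ (e && κ), e)

theorem sg (a b c d : Fin 10) (h : a ≠ b) (h' : c ≠ d) : sign (swap a b * swap c d) = 1 :=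
  sign_d2 h h'

theorem sg_ww : sign ww = 1 := sg _ _ _ _ (by decide) (by decide)
theorem sg_s12 : sign s12 = 1 := sg _ _ _ _ (by decide) (by decide)
theorem sg_vv : sign vv = 1 := sg _ _ _ _ (by decide) (by decide)
theorem sg_yy : sign yy = 1 := sg _ _ _ _ (by decide) (by decide)
theorem sg_hh : sign hh = 1 := sg _ _ _ _ (by decide) (by decide)
theorem sg_qq : sign qq = 1 := sg _ _ _ _ (by decide) (by decide)
theorem sg_s34 : sign s34 = 1 := sg _ _ _ _ (by decide) (by decide)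
theorem sg_mul {a b : Perm (Fin 10)} (ha : sign a = 1) (hb : sign b = 1) : sign (a * b) = 1 := by
  rw [Perm.sign_mul, ha, hb, mul_one]
theorem sg_zz : sign zz = 1 := sg_mul sg_ww sg_vv
theorem sg_pw (b : Bool) {a : Perm (Fin 10)} (ha : sign a = 1) : sign (pw b a) = 1 := by
  cases b
  · exact Perm.sign_one
  · exact ha
theorem sg_cd (c : Cd) : sign (cd c) = 1 :=
  sg_mul (sg_mul (sg_mul (sg_pw _ sg_ww) (sg_pw _ sg_s12)) (sg_pw _ sg_vv)) (sg_pw _ sg_yy)

theorem ch : ∀ c i, (hh * cd c) i = (cd (fh c) * hh) i := by decide +kernel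
theorem cp : ∀ c i, (s34 * cd c) i = (cd (fp c) * s34) i := by decide +kernel
theorem cq : ∀ c i, (qq * cd c) i = (cd (fq c) * qq) i := by decide +kernel
theorem cg : ∀ ε κ a u b c d e : Bool, ∀ i,
    (pw a zz * 1 * pw b ww * pw c (s12 * pw ε ww * vv) * pw d vv * pw e (yy * pw κ zz)) i =
      cd (fg ε κ a (u, b, c, d, e)) i := by decide +kernel

section

variable {G : Type u} [Group G] {t U k k' : G} {I : Perm (Fin 10) → G}

/-- The frame. -/
structure Fr (t U : G) (I : Perm (Fin 10) → G) : Prop where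
  mul : ∀ σ τ, sign σ = 1 → sign τ = 1 → I (σ * τ) = I σ * I τ
  one : I 1 = 1
  t2 : t * t = 1
  u2 : U * U = 1
  tu : Commute t U
  tI : ∀ σ, Commute t (I σ)
  uI : ∀ σ, sign σ = 1 → Commute U (I σ)

/-- The tracked elements. -/
def E (t U : G) (I : Perm (Fin 10) → G) (a u : Bool) (σ : Perm (Fin 10)) : G :=
  pw a t * pw u U * I σ

theorem pw_mul {g : G} (h : g * g = 1) (a b : Bool) : pw a g * pw b g = pw (a ^^ b) g := by
  cases a <;> cases b <;> simp [pw, h]

theorem pw_comm {g x : G} (h : Commute g x) (a : Bool) : Commute (pw a g) x := by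
  cases a
  · exact Commute.one_left x
  · exact h

theorem Fr.emul (f : Fr t U I) (a u b v : Bool) {σ τ : Perm (Fin 10)} (h1 : sign σ = 1)
    (h2 : sign τ = 1) : E t U I a u σ * E t U I b v τ = E t U I (a ^^ b) (u ^^ v) (σ * τ) := by
  have h3 := ((pw_comm (f.tI σ) b).mul_left (pw_comm (f.uI σ h1) v)).eq
  have h4 := (pw_comm (pw_comm f.tu b).symm u).eq
  calc E t U I a u σ * E t U I b v τ = pw a t * pw u U * (I σ * (pw b t * pw v U)) * I τ := by
        simp only [E, mul_assoc]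
    _ = pw a t * (pw u U * pw b t) * pw v U * (I σ * I τ) := by rw [← h3]; simp only [mul_assoc]
    _ = _ := by
        rw [h4, E, f.mul σ τ h1 h2, ← pw_mul f.t2, ← pw_mul f.u2]; simp only [mul_assoc]

/-- `k` conjugates one tracked element to another. -/
def R (t U : G) (I : Perm (Fin 10) → G) (k : G) (a u : Bool) (σ : Perm (Fin 10)) (v : Bool)
    (τ : Perm (Fin 10)) : Prop :=
  sign σ = 1 ∧ sign τ = 1 ∧ k * E t U I a u σ * k⁻¹ = E t U I a v τ

theorem Fr.rmul (f : Fr t U I) {a u v a' u' v' : Bool} {σ τ σ' τ' : Perm (Fin 10)}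
    (h : R t U I k a u σ v τ) (h' : R t U I k a' u' σ' v' τ') :
    R t U I k (a ^^ a') (u ^^ u') (σ * σ') (v ^^ v') (τ * τ') :=
  ⟨sg_mul h.1 h'.1, sg_mul h.2.1 h'.2.1, by
    rw [← f.emul _ _ _ _ h.1 h'.1, ← f.emul _ _ _ _ h.2.1 h'.2.1, ← h.2.2, ← h'.2.2]; group⟩

theorem Fr.rpw (f : Fr t U I) {a u v : Bool} {σ τ : Perm (Fin 10)} (h : R t U I k a u σ v τ)
    (b : Bool) : R t U I k (b && a) (b && u) (pw b σ) (b && v) (pw b τ) := by
  cases b
  · exact ⟨Perm.sign_one, Perm.sign_one, by simp [E, pw, f.one]⟩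
  · exact h

/-- The same on codes. -/
def Q (t U : G) (I : Perm (Fin 10) → G) (k : G) (a : Bool) (c c' : Cd) : Prop :=
  k * E t U I a c.1 (cd c) * k⁻¹ = E t U I a c'.1 (cd c')

theorem Q.comp {a : Bool} {c c' : Cd} {F : Cd → Cd} (h' : ∀ c, Q t U I k' a c (F c))
    (h : Q t U I k a c c') : Q t U I (k' * k) a c (F c') := by
  rw [Q, ← h' c', ← h]; group

theorem Fr.qi (f : Fr t U I) {h : Perm (Fin 10)} (hh : sign h = 1) {F : Cd → Cd}
    (h1 : ∀ c, (F c).1 = c.1) (h2 : ∀ c i, (h * cd c) i = (cd (F c) * h) i) (a : Bool) (c : Cd) :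
    Q t U I (I h) a c (F c) := by
  have h3 := ((pw_comm (f.tI h) a).mul_left (pw_comm (f.uI h hh) c.1)).eq
  rw [Q, mul_inv_eq_iff_eq_mul, E, E, h1, ← mul_assoc, ← h3, mul_assoc, mul_assoc _ (I _),
    ← f.mul _ _ hh (sg_cd c), ← f.mul _ _ (sg_cd _) hh, Equiv.ext (h2 c)]

theorem Fr.qg (f : Fr t U I) {ε κ : Bool} (ht : k * t * k⁻¹ = t * I zz) (hu : k * U * k⁻¹ = U)
    (hw : k * I ww * k⁻¹ = I ww) (hs : k * I s12 * k⁻¹ = I (s12 * pw ε ww * vv))
    (hv : k * I vv * k⁻¹ = I vv) (hy : k * I yy * k⁻¹ = pw (!κ) U * I (yy * pw κ zz))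
    (a : Bool) (c : Cd) : Q t U I k a c (fg ε κ a c) := by
  obtain ⟨u, b, c, d, e⟩ := c
  have r1 : R t U I k true false 1 false zz :=
    ⟨Perm.sign_one, sg_zz, by simpa [E, pw, f.one] using ht⟩
  have r2 : R t U I k false true 1 true 1 :=
    ⟨Perm.sign_one, Perm.sign_one, by simpa [E, pw, f.one] using hu⟩
  have r3 : R t U I k false false ww false ww := ⟨sg_ww, sg_ww, by simpa [E, pw] using hw⟩
  have r4 : R t U I k false false s12 false (s12 * pw ε ww * vv) :=
    ⟨sg_s12, sg_mul (sg_mul sg_s12 (sg_pw _ sg_ww)) sg_vv, by simpa [E, pw] using hs⟩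
  have r5 : R t U I k false false vv false vv := ⟨sg_vv, sg_vv, by simpa [E, pw] using hv⟩
  have r6 : R t U I k false false yy (!κ) (yy * pw κ zz) :=
    ⟨sg_yy, sg_mul sg_yy (sg_pw _ sg_zz), by
      rw [E, E, ← mul_assoc] at *; simpa [pw] using hy⟩
  have h := (f.rmul (f.rmul (f.rmul (f.rmul (f.rmul (f.rpw r1 a) (f.rpw r2 u)) (f.rpw r3 b))
    (f.rpw r4 c)) (f.rpw r5 d)) (f.rpw r6 e)).2.2
  have h1 : ∀ b : Bool, pw b (1 : Perm (Fin 10)) = 1 := fun b => by cases b <;> rfl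
  rw [h1, h1, Equiv.ext (cg ε κ a u b c d e)] at h
  simpa [Q, cd, fg] using h

theorem Fr.qh (f : Fr t U I) (a : Bool) (c : Cd) : Q t U I (I hh) a c (fh c) :=
  f.qi (F := fh) sg_hh (fun _ => rfl) ch a c

theorem Fr.qp (f : Fr t U I) (a : Bool) (c : Cd) : Q t U I (I s34) a c (fp c) :=
  f.qi (F := fp) sg_s34 (fun _ => rfl) cp a c

theorem Fr.qq (f : Fr t U I) (a : Bool) (c : Cd) : Q t U I (I qq) a c (fq c) :=
  f.qi (F := fq) sg_qq (fun _ => rfl) cq a c

/-- The effect of the long word. -/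
def fw (ε a : Bool) (c : Cd) : Cd :=
  fg ε true a (fq (fp (fh (fg ε true a (fq ((if ε then id else fg ε true a)
    (fh (fg ε true a c))))))))

theorem Fr.word (f : Fr t U I) {ε : Bool} (h : ∀ a c, Q t U I k a c (fg ε true a c)) :
    ∃ W, ∀ a c, Q t U I W a c (fw ε a c) := by
  cases ε
  · have := fun a c => Q.comp (h a) (Q.comp (f.qq a) (Q.comp (f.qp a) (Q.comp (f.qh a)
      (Q.comp (h a) (Q.comp (f.qq a) (Q.comp (h a) (Q.comp (f.qh a) (h a c))))))))
    exact ⟨_, this⟩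
  · have := fun a c => Q.comp (h a) (Q.comp (f.qq a) (Q.comp (f.qp a) (Q.comp (f.qh a)
      (Q.comp (h a) (Q.comp (f.qq a) (Q.comp (f.qh a) (h a c)))))))
    exact ⟨_, this⟩

end

def c0 : Cd := (false, false, false, false, false)
def c1 : Cd := (false, true, false, false, false)
def c2 : Cd := (false, false, true, false, false)

theorem w0 : ∀ ε, fw ε true c0 = c0 := by decide
theorem w1 : (cd c1).support = (cd c2).support := by decide +kernel
theorem w2 : ∀ ε, (cd (fw ε false c1)).support ≠ (cd (fw ε false c2)).support := by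
  decide +kernel
theorem w3 : ∀ i, cd c0 i = (1 : Perm (Fin 10)) i := by decide
theorem w4 : ∀ ε, (fg ε false true (fq (fh (fg ε false true c0)))).1 = true := by decide
theorem w5 : ∀ ε, (cd (fg ε false true (fq (fh (fg ε false true c0))))).support.card = 8 := by
  decide +kernel
theorem w6 : ∀ c i, (cd c * cd c) i = (1 : Perm (Fin 10)) i := by decide +kernel

section

variable {G : Type u} [Group G] {α : Type} [Fintype α] [DecidableEq α]
  {ψ : alternatingGroup α →* G} {t : G}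

theorem fr (b : Bs ψ t) (x : Fin 10 ↪ α) {r : Perm α} (hr : sign r = 1) (h2 : r * r = 1)
    (hc : ∀ σ, Commute r (em x σ)) : Fr t (ev ψ r) fun σ => ev ψ (em x σ) where
  mul σ τ h h' := by rw [map_mul, ev_mul (by rw [sign_em, h]) (by rw [sign_em, h'])]
  one := by rw [map_one, ev_one]
  t2 := b.t2
  u2 := by rw [← ev_mul hr hr, h2, ev_one]
  tu := KA_ev b.tK r
  tI σ := KA_ev b.tK _
  uI σ h := ev_comm hr (by rw [sign_em, h]) (hc σ)

theorem ne (b : Bs ψ t) (k : Kit ψ t) {g : G} {x : Fin 10 ↪ α} : ¬ NE ψ t g x := fun h => by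
  obtain ⟨ε, hs⟩ := h.gs
  have f := fr b x (r := 1) Perm.sign_one (mul_one 1) fun _ => Commute.one_left _
  obtain ⟨W, hW⟩ := f.word (f.qg (k := g) (ε := ε) (κ := true) h.n0.gt (by simp [ev_one])
    h.n0.gw hs h.n0.gv (by simpa [pw] using h.gy))
  have h0 := hW true c0
  rw [w0, Q, Equiv.ext w3, mul_inv_eq_iff_eq_mul] at h0
  obtain ⟨ρ, hρ⟩ := k.act W (show W * t = t * W by simpa [E, pw, c0, ev_one] using h0)
  have h1 : ∀ c, ρ * em x (cd c) * ρ⁻¹ = em x (cd (fw ε false c)) := fun c => by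
    have h2 : sign (em x (cd c)) = 1 := by rw [sign_em, sg_cd]
    refine ev_inj b.inj (by rw [sign_conj', h2]) (by rw [sign_em, sg_cd]) ?_
    have h3 : ∀ u, pw u (ev ψ 1) = 1 := fun u => by cases u <;> simp [pw, ev_one]
    have h4 := hW false c
    rw [Q, E, E, h3, h3] at h4
    rw [← hρ _ h2]
    simpa [pw] using h4
  refine w2 ε (Finset.map_injective x ?_)
  rw [← support_em, ← support_em, ← h1, ← h1, Perm.support_conj, Perm.support_conj, support_em,
    support_em, w1]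

theorem nx (f0 : Bs ψ t) {g : G} {x : Fin 10 ↪ α} {a b c d : α} : ¬ NX ψ t g x a b c d :=
  fun h => by
  obtain ⟨ε, hs⟩ := h.gs
  obtain ⟨hn, hx⟩ := h.four
  simp only [List.nodup_cons, List.mem_cons, List.not_mem_nil, or_false, not_or,
    not_false_eq_true, List.nodup_nil, and_true] at hn
  obtain ⟨⟨hab, hac, had⟩, ⟨hbc, hbd⟩, hcd⟩ := hn
  have hr : sign (d2 a b c d) = 1 := sign_d2 hab hcd
  have hd : ∀ σ, (d2 a b c d).Disjoint (em x σ) := fun σ e => by
    by_cases he : ∃ i, x i = e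
    · obtain ⟨i, rfl⟩ := he
      obtain ⟨h1, h2, h3, h4⟩ := hx i
      exact Or.inl (by rw [d2_apply, Equiv.swap_apply_of_ne_of_ne h3 h4,
        Equiv.swap_apply_of_ne_of_ne h1 h2])
    · exact Or.inr (em_of_not x σ fun i hi => he ⟨i, hi⟩)
  have hd' : (swap a b).Disjoint (swap c d) := (Perm.disjoint_swap_swap
    (by simp [hab, hac, had, hbc, hbd, hcd]))
  have h2 : d2 a b c d * d2 a b c d = 1 := by
    rw [d2, ← sq, hd'.commute.mul_pow, sq, sq, Equiv.swap_mul_self, Equiv.swap_mul_self, mul_one]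
  have f := fr f0 x hr h2 fun σ => (hd σ).commute
  have hg := f.qg (k := g) (ε := ε) (κ := false) h.n0.gt h.gu h.n0.gw hs h.n0.gv
    (by rw [h.gy, ← (f.uI yy sg_yy).eq]; simp [pw])
  have h3 := Q.comp (hg true) (Q.comp (f.qq true) (Q.comp (f.qh true) (hg true c0)))
  rw [Q, w4, Equiv.ext w3] at h3
  have h4 := w5 ε
  generalize fg ε false true (fq (fh (fg ε false true c0))) = e at h3 h4
  have h5 : sign (em x (cd e)) = 1 := by rw [sign_em, sg_cd]
  refine h.n12 ⟨d2 a b c d * em x (cd e), ?_, by rw [Perm.sign_mul, hr, h5, mul_one], ?_,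
    isConj_iff.2 ⟨g * (ev ψ (em x qq) * (ev ψ (em x hh) * g)), ?_⟩⟩
  · rw [← sq, (hd _).commute.mul_pow, sq, sq, h2, ← map_mul, Equiv.ext (w6 e), map_one, mul_one]
  · rw [(hd _).card_support_mul, card_em, h4, d2, hd'.card_support_mul,
      Perm.card_support_swap hab, Perm.card_support_swap hcd]
  · rw [ev_mul hr h5]
    simpa [E, pw, c0, ev_one, mul_assoc] using h3

end

theorem we : WeStmt.{u} := fun _ _ b k _ => ⟨fun _ _ => ne b k, fun _ _ _ _ _ _ => nx b⟩

end Cfsg.Agent.H88.AnWe
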