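import Mathlib
import Cfsg.Agent.H88.FpfCore
import Cfsg.Agent.H4.HHCore
import Cfsg.Agent.H7.Pairing

/-! Weights of a central elementary abelian subgroup and extraspecial sections. -/

set_option autoImplicit false
set_option linter.unusedSectionVars false
set_option linter.unusedVariables false

namespace Cfsg.Agent.H88

open Cfsg Cfsg.Agent.H63 Cfsg.Agent.H67 Cfsg.Agent.H69 Subgroup
open scoped IsMulCommutative commutatorElement

universe u

variable {X : Type u} [Group X] [Finite X]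

/-- A weight `Y` of `Z` on `V`, its stabilizer `T`, weight space `W` and kernel `N`. -/
structure Weight (s : ℕ) (V A P Z Y T W N : Subgroup X) : Prop where
  le : Y ≤ Z
  card : s * Nat.card Y = Nat.card Z
  max : ∀ Y', Y ≤ Y' → Y' ≤ Z → Y' = Y ∨ Y' = Z
  hT : T = A ⊓ stabMod Z Y
  hW : W = V ⊓ C[Y]
  hN : N = P ⊓ C[W]
  TA : T ≤ A
  ne : T ≠ A
  W_ne : W ≠ ⊥
  fpf : W ⊓ C[T] = ⊥
  inf : N ⊓ Z = Y
  nle : ¬ Z ≤ N
  PW : P ≤ N[W]
  TW : T ≤ N[W]
  NP : N ⊴ P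
  TN : T ≤ N[N]
  WN : W ≤ N[N]
  ZT : ⁅Z, T⁆ ≤ Y

theorem weight_of {s : ℕ} (hs : s.Prime) {V A P Z Y : Subgroup X} (hV : IsMulCommutative V)
    (hZ : IsElementaryAbelian s Z) (hZP : Z ≤ Z[P]) (hAV : A ≤ N[V]) (hPV : P ≤ N[V])
    (hAP : A ≤ N[P]) (hAZ : A ≤ N[Z]) (cV : (Nat.card A).Coprime (Nat.card V))
    (cVP : (Nat.card V).Coprime (Nat.card P)) (cP : (Nat.card A).Coprime (Nat.card P))
    (hVZ : V ⊓ C[Z] = ⊥) (fV : V ⊓ C[A] = ⊥) (fP : Z ⊓ C[A] = ⊥) (hY : Y ≤ Z)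
    (hcard : s * Nat.card Y = Nat.card Z) (hW : V ⊓ C[Y] ≠ ⊥) :
    Weight s V A P Z Y (A ⊓ stabMod Z Y) (V ⊓ C[Y]) (P ⊓ C[V ⊓ C[Y]]) := by
  have hZP' : Z ≤ P := hZP.trans inf_le_left
  have hmax : ∀ Y', Y ≤ Y' → Y' ≤ Z → Y' = Y ∨ Y' = Z := fun Y' h3 h4 =>
    eq_or_eq_of_prime_mul_card hs h3 h4 hcard
  have hYZ : Y ≠ Z := fun h => hW (h ▸ hVZ)
  have hPW : P ≤ N[V ⊓ C[Y]] := le_normalizer_inf hPV (le_normalizer_centralizer
    (le_normalizer_of_le_centralizer' (hY.trans (hZP.trans inf_le_right))))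
  have hTW : A ⊓ stabMod Z Y ≤ N[V ⊓ C[Y]] := le_normalizer_inf (inf_le_left.trans hAV)
    (le_normalizer_centralizer (le_stabMod_iff.mp inf_le_right).1)
  have hnle : ¬ Z ≤ P ⊓ C[V ⊓ C[Y]] := fun h =>
    hW (le_bot_iff.mp (hVZ ▸ le_inf inf_le_left (cent_symm (h.trans inf_le_right))))
  refine ⟨hY, hcard, hmax, rfl, rfl, rfl, inf_le_left, fun h => hYZ (le_antisymm hY ?_), hW,
    hyperplane_lemma hV hZ.1 hAV (hZP'.trans hPV) hAZ cV.symm (cop_le cVP le_rfl hZP') hY hmax hVZ fV,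
    ?_, hnle, hPW, hTW, inf_centralizer_normalIn hPW,
    le_normalizer_inf (inf_le_left.trans hAP) (le_normalizer_centralizer hTW),
    le_normalizer_of_le_centralizer' inf_le_right, commutator_le_of_le_stabMod inf_le_right⟩
  · rw [← coprime_commutator_eq_of_cent_eq_bot hAZ (cop_le cP le_rfl hZP')
      (Or.inr (isSolvable_of_comm' hZ.1)) fP]
    exact commutator_le_of_le_stabMod (h ▸ inf_le_right)
  · rcases hmax (P ⊓ C[V ⊓ C[Y]] ⊓ Z) (le_inf (le_inf (hY.trans hZP') (cent_symm inf_le_right)) hY)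
      inf_le_right with h | h
    · exact h
    · exact absurd (inf_eq_right.mp h) hnle

theorem exists_weight {s : ℕ} (hs : s.Prime) {V A P Z : Subgroup X} (hV : IsMulCommutative V)
    (hV1 : V ≠ ⊥) (hZ : IsElementaryAbelian s Z) (hZP : Z ≤ Z[P]) (hAV : A ≤ N[V]) (hPV : P ≤ N[V])
    (hAP : A ≤ N[P]) (hAZ : A ≤ N[Z]) (cV : (Nat.card A).Coprime (Nat.card V))
    (cVP : (Nat.card V).Coprime (Nat.card P)) (cP : (Nat.card A).Coprime (Nat.card P))
    (hVZ : V ⊓ C[Z] = ⊥) (fV : V ⊓ C[A] = ⊥) (fP : Z ⊓ C[A] = ⊥) :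
    ∃ Y T W N, Weight s V A P Z Y T W N := by
  have hZP' : Z ≤ P := hZP.trans inf_le_left
  obtain ⟨Y, hY, hcard, -, hW⟩ := exists_hyperplane hs hZ (hZP'.trans hPV) (cop_le cVP le_rfl hZP')
    hV1 hVZ
  exact ⟨_, _, _, _, weight_of hs hV hZ hZP hAV hPV hAP hAZ cV cVP cP hVZ fV fP hY hcard hW⟩

namespace Weight

variable {s : ℕ} {V A P Z Y T W N : Subgroup X}

theorem card_quo (h : Weight s V A P Z Y T W N) (hZ : Z ≤ P) : Nat.card (Z /ᵍ N) = s := by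
  have h1 := card_quo_mul_inf (hZ.trans h.NP.norm)
  rw [h.inf, ← h.card] at h1
  exact Nat.eq_of_mul_eq_mul_right Nat.card_pos h1

theorem faithful (h : Weight s V A P Z Y T W N) (hs : Group.IsSolvable P)
    (cVP : (Nat.card V).Coprime (Nat.card P)) : P /ᵍ N ⊓ C[W /ᵍ N] = ⊥ := by
  rw [← H63.coprime_quo_cent h.NP.le h.WN (cop_le cVP (h.hW ▸ inf_le_left) h.NP.le)
    (Or.inr (isSolvable_of_le hs h.NP.le)), ← h.hN, quo_self]

theorem fpf_quo (h : Weight s V A P Z Y T W N) (hs : Group.IsSolvable V)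
    (cV : (Nat.card A).Coprime (Nat.card V)) : W /ᵍ N ⊓ C[T /ᵍ N] = ⊥ :=
  H88.fpf_quo h.TW h.TN (cop_le cV h.TA (h.hW ▸ inf_le_left))
    (isSolvable_of_le hs (h.hW ▸ inf_le_left)) h.fpf

theorem cent_quo (h : Weight s V A P Z Y T W N) : T /ᵍ N ≤ C[Z /ᵍ N] :=
  quo_cents_of_commutator_le (by
    rw [commutator_comm]
    exact h.ZT.trans (h.inf ▸ inf_le_left))

theorem card_T (h : Weight s V A P Z Y T W N) (cP : (Nat.card A).Coprime (Nat.card P)) {B : Subgroup X}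
    (hB : B ≤ T) : Nat.card (B /ᵍ N) = Nat.card B :=
  card_quo_of_disjoint (hB.trans h.TN)
    (inf_eq_bot_of_coprime' (cop_le cP.symm h.NP.le (hB.trans h.TA)))

end Weight

/-- A cyclic operator group without fixed points on a faithful module of a group of symplectic
type is exceptional. -/
theorem extraspecial_of_faithful {s : ℕ} (hs : s.Prime) {P Z B T W : Subgroup X}
    (hP : IsPGroup s P) (hZ : Nat.card Z = s) (hZP : Z ≤ Z[P]) (h1 : ⁅P, P⁆ ≤ Z)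
    (h3 : ∀ x ∈ P, x ^ s ∈ Z) (hT : IsCyclic T) (hBT : B ≤ T)
    (hB : ∀ a ∈ T, a ≠ 1 → B ≤ zpowers a) (hPB : ¬ B ≤ C[P]) (hTP : T ≤ N[P]) (hTZ : T ≤ C[Z])
    (hc : (Nat.card T).Coprime (Nat.card P)) (hW : IsMulCommutative W) (hPW : P ≤ N[W])
    (hTW : T ≤ N[W]) (cP : (Nat.card W).Coprime (Nat.card P))
    (cT : (Nat.card W).Coprime (Nat.card T)) (hf : P ⊓ C[W] = ⊥) (hWT : W ⊓ C[T] = ⊥) :
    B ≤ C[Z[P]] ∧ IsExtraspecial s ↥⁅P, B⁆ ∧ Z[⁅P, B⁆] = Z ∧ ⁅P, B⁆ ⊓ C[B] = Z ∧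
      ∃ k, 1 ≤ k ∧ Nat.card ↥⁅P, B⁆ = s ^ (2 * k + 1) ∧ Nat.card T = s ^ k + 1 := by
  have := Fact.mk hs
  have hTB : T ≤ N[B] := (normalIn_of_isMulCommutative inferInstance hBT).norm
  have hB1 : B ≠ ⊥ := fun h => hPB (h ▸ bot_le)
  have hTZP : T ≤ N[Z[P]] := hTP.trans (normalizer_le_normalizer_center P)
  have hBZ : B ≤ C[Z[P]] := by
    by_contra hcon
    have hDZ : ⁅Z[P], B⁆ ≤ Z[P] := commutator_le_of_norm_left (hBT.trans hTZP)
    have hD : ⁅Z[P], B⁆ ≠ ⊥ := fun h => hcon (cent_symm (le_cent_of_commutator_eq_bot h))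
    have hTD : T ≤ N[⁅Z[P], B⁆] := le_normalizer_commutator hTZP hTB
    have h0 := coprime_abel_cent_TI (hBT.trans hTZP) (cop_le hc hBT inf_le_left)
      (isMulCommutative_center P)
    have hreg : Semiregular ⁅Z[P], B⁆ T := fun a ha ha1 => by
      rw [eq_bot_iff, ← h0, ← centralizer_zpowers]
      exact inf_le_inf_left _ (centralizer_anti (hB a ha ha1))
    exact Frobenius_cent_compl (Frobenius_of_semiregular hTD hreg hD (ne_bot_mono hB1 hBT)) hW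
      (sup_le ((hDZ.trans inf_le_left).trans hPW) hTW) (cop_le cP le_rfl (hDZ.trans inf_le_left))
      (fun h => hD (le_bot_iff.mp (hf ▸ le_inf (hDZ.trans inf_le_left) h))) hWT
  obtain ⟨hE, hZE, hCE⟩ := extraspecial_commutator hs hP hZ hZP h1 h3 (hBT.trans hTP)
    (cop_le hc hBT le_rfl) hBZ hPB
  have hEP : ⁅P, B⁆ ≤ P := commutator_le_of_norm_left (hBT.trans hTP)
  have hTE : T ≤ N[⁅P, B⁆] := le_normalizer_commutator hTP hTB
  obtain ⟨k, hk, hcard⟩ := H7.IsExtraspecial.card_eq hE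
  refine ⟨hBZ, hE, hZE, hCE, k, hk, hcard, ?_⟩
  by_contra hne
  have hZ1 : Z ≠ ⊥ := H69.ne_bot_of_prime_card (hZ ▸ hs)
  refine repr_extraspecial_prime_sdprod_cycle_cent hE
    (isSdp_sup_of_coprime hTE (cop_le hc.symm hEP le_rfl)) hT hcard
    (coprime_prime_of_ne_bot hs hP (ne_bot_mono hZ1 (hZP.trans inf_le_left)) hc).symm ?_ hne
    (isSolvable_of_comm' hW) (sup_le (hEP.trans hPW) hTW)
    (coprime_sup (Or.inr hTE) (cop_le cP le_rfl hEP) cT) ?_ hWT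
  · intro a ha ha1
    rw [hZE]
    refine le_antisymm ?_ (le_inf (hCE ▸ inf_le_left) ?_)
    · rw [← hCE, ← centralizer_zpowers]
      exact inf_le_inf_left _ (centralizer_anti (hB a ha ha1))
    · rw [← centralizer_zpowers]
      exact cent_symm ((zpowers_le.mpr ha).trans hTZ)
  · rw [hZE]
    exact fun h => hZ1 (le_bot_iff.mp (hf ▸ le_inf (hZP.trans inf_le_left) h))

/-- Conjugates in general position. -/
theorem isMul_iInf_cj {A T P M Z : Subgroup X} (hT : T ≤ A) (hAP : A ≤ N[P]) (hTM : T ≤ N[M])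
    (hM : M ≤ P) (h1 : P ⊓ ⨅ a : A, cj a M ≤ Z)
    (h2 : M.relIndex P ^ T.relIndex A ≤ Z.relIndex P) :
    IsMul (P ⊓ ⨅ a : {a // a ∈ A ∧ a ∉ T}, cj a M) M P := by
  classical
  set D := P ⊓ ⨅ a : {a // a ∈ A ∧ a ∉ T}, cj a M with hD
  rw [isMul_iff_relIndex inf_le_left hM]
  have hm : 0 < M.relIndex P := Nat.pos_of_ne_zero (relIndex_ne_zero' _ _)
  let ι := {c : A ⧸ T.subgroupOf A // c ≠ ((1 : A) : A ⧸ T.subgroupOf A)}
  let : Fintype (A ⧸ T.subgroupOf A) := Fintype.ofFinite _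
  have h3 : (⨅ c : ι, cj ((c.1.out : A) : X) M) ⊓ P ≤ D := by
    refine le_inf inf_le_right (le_iInf fun a => inf_le_left.trans ?_)
    let a' : A := ⟨a.1, a.2.1⟩
    have h4 : (a' : A ⧸ T.subgroupOf A) ≠ ((1 : A) : A ⧸ T.subgroupOf A) := fun hh => a.2.2 (by
      have := QuotientGroup.eq.mp hh.symm
      simpa [mem_subgroupOf] using this)
    refine (iInf_le _ ⟨_, h4⟩).trans (le_of_eq ?_)
    obtain ⟨t, ht⟩ := QuotientGroup.mk_out_eq_mul (T.subgroupOf A) a'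
    rw [ht, coe_mul, ← cj_cj, cj_eq_self (hTM (mem_subgroupOf.mp t.2))]
  have h4 : D.relIndex P ≤ M.relIndex P ^ (T.relIndex A - 1) := by
    refine (relIndex_le_of_le_left h3 (relIndex_ne_zero' _ _)).trans ?_
    rw [inf_relIndex_right]
    refine (relIndex_iInf_le _).trans (le_of_eq ?_)
    rw [Finset.prod_congr rfl (g := fun _ => M.relIndex P), Finset.prod_const, Finset.card_univ,
      Fintype.card_subtype_compl, Fintype.card_subtype_eq, ← Nat.card_eq_fintype_card]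
    · rfl
    · intro c _
      conv_lhs => rw [← cj_eq_self (hAP (c.1.out : A).2)]
      exact relIndex_cj _ _ _
  have h5 : Z.relIndex P ≤ (M ⊓ D).relIndex P := by
    refine relIndex_le_of_le_left (le_trans (le_inf (inf_le_right.trans inf_le_left)
      (le_iInf fun a => ?_)) h1) (relIndex_ne_zero' _ _)
    by_cases ha : (a : X) ∈ T
    · rw [cj_eq_self (hTM ha)]; exact inf_le_left
    · exact inf_le_right.trans (inf_le_right.trans (iInf_le (fun a : {a // a ∈ A ∧ a ∉ T} => cj (a : X) M)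
        ⟨a, a.2, ha⟩))
  rw [← relIndex_mul_relIndex (M ⊓ D) D P inf_le_right inf_le_left, inf_relIndex_right] at h5
  refine le_antisymm (relIndex_le_of_le_right inf_le_left (relIndex_ne_zero' _ _)) ?_
  have h6 : T.relIndex A = (T.relIndex A - 1) + 1 :=
    (Nat.sub_add_cancel (Nat.pos_of_ne_zero (relIndex_ne_zero' _ _))).symm
  rw [h6, pow_succ'] at h2
  exact Nat.le_of_mul_le_mul_right ((h2.trans h5).trans (Nat.mul_le_mul_left _ h4)) (pow_pos hm _)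

/-- The final contradiction from conjugates in general position. -/
theorem Weight.not_isMul {s : ℕ} {V A P Z Y T W N : Subgroup X} (h : Weight s V A P Z Y T W N)
    (hZ : ⁅P, P⁆ = Z) (hZP : Z ≤ C[P]) (hAP : A ≤ N[P]) (cP : (Nat.card A).Coprime (Nat.card P))
    (fP : P ⊓ C[A] = ⊥) {M : Subgroup X} (hM : M ≤ P) (hMP : ⁅M, P⁆ ≤ N) :
    ¬ IsMul (P ⊓ ⨅ a : {a // a ∈ A ∧ a ∉ T}, cj a M) M P := by
  intro hmul
  set D := P ⊓ ⨅ a : {a // a ∈ A ∧ a ∉ T}, cj a M with hD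
  have hZle : Z ≤ P := hZ ▸ commutator_le_of_le le_rfl le_rfl
  have h1 : ⁅D, D⁆ ≤ N := by
    rw [commutator_le]
    intro u hu v hv
    have huv : ⁅u, v⁆ ∈ Z := hZ ▸ commutator_mem_commutator hu.1 hv.1
    refine trace_lemma' (V := Z) (le_centralizer_iff_isMulCommutative.mp (hZP.trans
      (centralizer_anti hZle))) (hZ ▸ le_normalizer_commutator hAP hAP) h.TA
      (cop_le cP.symm hZle le_rfl) (fpf_mono fP hZle) huv (fun a ha => ?_) (fun a ha haT => ?_)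
    · refine (h.inf ▸ inf_le_left : Y ≤ N) (h.ZT ?_)
      rw [commutator_comm]
      exact commutator_mem_commutator ha huv
    · rw [conjugate_commutatorElement]
      refine hMP (commutator_mem_commutator ?_ (conj_mem_of_mem_normalizer (hAP ha) hv.1))
      have := mem_iInf.mp hu.2 ⟨a⁻¹, inv_mem ha, fun hh => haT (inv_mem_iff.mp hh)⟩
      simpa using mem_cj.mp this
  apply h.nle
  have hPN := h.NP.norm
  rw [← hZ, ← quo_cents_iff hPN hPN]
  have h2 : M /ᵍ N ≤ C[P /ᵍ N] := quo_cents_of_commutator_le hMP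
  have h3 : P /ᵍ N = D /ᵍ N ⊔ M /ᵍ N := by
    rw [← quo_sup (inf_le_left.trans hPN) (hM.trans hPN), hmul.sup]
  conv_lhs => rw [h3]
  refine sup_le (cent_symm ?_) h2
  rw [h3]
  exact sup_le (quo_cents_of_commutator_le h1) (h2.trans (centralizer_anti (quo_mono _ inf_le_left)))

theorem two_mul_dvd_of_dvd_pow_sub_one {s k a : ℕ} (hs : 2 ≤ s) (hk : 1 ≤ k)
    (h : s ^ k + 1 ∣ s ^ a - 1) : 2 * k ∣ a := by
  have h1 : s ^ k + 1 ∣ s ^ (2 * k) - 1 := by
    rw [mul_comm, pow_mul]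
    exact ⟨s ^ k - 1, by simpa using Nat.sq_sub_sq (s ^ k) 1⟩
  have h2 := Nat.dvd_gcd h h1
  rw [Nat.pow_sub_one_gcd_pow_sub_one] at h2
  obtain ⟨c, hc⟩ := Nat.gcd_dvd_right a (2 * k)
  have hd : 0 < a.gcd (2 * k) := Nat.gcd_pos_of_pos_right _ (by omega)
  have h3 : 1 < s ^ a.gcd (2 * k) := Nat.one_lt_pow hd.ne' hs
  have h4 : s ^ k < s ^ a.gcd (2 * k) := by
    have := Nat.le_of_dvd (by omega) h2
    omega
  have h5 : k < a.gcd (2 * k) := (Nat.pow_lt_pow_iff_right hs).mp h4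
  have h6 : c = 1 := by
    rcases c with _ | _ | c
    · omega
    · rfl
    · nlinarith
  rw [h6, mul_one] at hc
  rw [hc]
  exact Nat.gcd_dvd_left _ _

theorem le_of_pow_dvd_pow_sub_one {p s k m e a : ℕ} (hp : p.Prime) (hp2 : p ≠ 2) (hs : 2 ≤ s)
    (hk : 1 ≤ k) (hm : p ^ m = s ^ k + 1) (ha : a ≠ 0) (h : p ^ (m + e) ∣ s ^ a - 1) :
    2 * k * p ^ e ≤ a := by
  have := Fact.mk hp
  have hodd : Odd p := hp.odd_of_ne_two hp2
  obtain ⟨c, rfl⟩ := two_mul_dvd_of_dvd_pow_sub_one hs hk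
    (hm ▸ (pow_dvd_pow p (Nat.le_add_right m e)).trans h)
  have hc : c ≠ 0 := fun hh => ha (by rw [hh, mul_zero])
  have hsk : 1 < s ^ k := Nat.one_lt_pow (by omega) hs
  have hm0 : m ≠ 0 := by
    rintro rfl
    rw [pow_zero] at hm
    omega
  have hpd : p ∣ s ^ k + 1 := hm ▸ dvd_pow_self p hm0
  have hsq : s ^ (2 * k) - 1 = (s ^ k + 1) * (s ^ k - 1) := by
    rw [mul_comm, pow_mul]
    simpa using Nat.sq_sub_sq (s ^ k) 1
  have hnd : ¬ p ∣ s ^ k - 1 := fun hh => by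
    have h1 := (Nat.dvd_sub hpd hh)
    rw [show s ^ k + 1 - (s ^ k - 1) = 2 by omega] at h1
    exact hp2 ((Nat.prime_dvd_prime_iff_eq hp Nat.prime_two).mp h1)
  have hlt : 1 < s ^ (2 * k) := Nat.one_lt_pow (by omega) hs
  have h1 := padicValNat.pow_sub_pow (p := p) (x := s ^ (2 * k)) (y := 1) hodd hlt
    (hsq ▸ hpd.mul_right _) (fun hh => by
      have h2 := Nat.dvd_sub hh (hsq ▸ hpd.mul_right _ : p ∣ s ^ (2 * k) - 1)
      rw [show s ^ (2 * k) - (s ^ (2 * k) - 1) = 1 by omega] at h2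
      exact hp.one_lt.ne' (Nat.dvd_one.mp h2)) hc
  rw [one_pow, ← pow_mul, hsq, padicValNat.mul (by omega) (by omega), ← hm, padicValNat.prime_pow,
    padicValNat.eq_zero_of_not_dvd hnd, add_zero] at h1
  have h2 : 1 < s ^ (2 * k * c) := Nat.one_lt_pow ha hs
  rw [padicValNat_dvd_iff_le (by omega), h1] at h
  exact Nat.mul_le_mul_left _ (Nat.le_of_dvd (Nat.pos_of_ne_zero hc)
    ((padicValNat_dvd_iff_le hc).mpr (by omega)))

end Cfsg.Agent.H88
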