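import Mathlib
import Cfsg.Agent.H88.FpfCyc

/-! Fixed-point-free action of a non-abelian group of order `p * q`. -/

set_option autoImplicit false
set_option linter.unusedSectionVars false
set_option linter.unusedVariables false

namespace Cfsg.Agent.H88

open Cfsg Cfsg.Agent.H63 Cfsg.Agent.H67 Cfsg.Agent.H69 Subgroup
open scoped IsMulCommutative commutatorElement

universe u

variable {X : Type u} [Group X] [Finite X]

theorem le_cent_of_commutator_eq {K T D : Subgroup X} (hKT : ⁅K, T⁆ = K) (hK : K ≤ N[D])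
    (hT : T ≤ C[D]) : K ≤ C[D] := by
  rw [← hKT]
  exact (commutator_mono le_rfl hT).trans
    (commutator_le_of_norm_right (le_normalizer_centralizer hK))

theorem cent_of_prime_faithful {s : ℕ} (hs : s.Prime) {P Z K T W : Subgroup X}
    (hP : IsPGroup s P) (hZ : Nat.card Z = s) (hZP : Z ≤ Z[P]) (h1 : ⁅P, P⁆ ≤ Z)
    (h3 : ∀ x ∈ P, x ^ s ∈ Z) (hT : (Nat.card T).Prime) (hTP : T ≤ N[P]) (hTZ : T ≤ C[Z])
    (hKP : K ≤ N[P]) (hTK : T ≤ N[K]) (hKT : ⁅K, T⁆ = K) (hK : K ⊓ C[T] ≤ C[P])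
    (hKs : Group.IsSolvable K) (cTP : (Nat.card T).Coprime (Nat.card P))
    (cKP : (Nat.card K).Coprime (Nat.card P)) (cTK : (Nat.card T).Coprime (Nat.card K))
    (hW : IsMulCommutative W) (hPW : P ≤ N[W]) (hTW : T ≤ N[W])
    (cP : (Nat.card W).Coprime (Nat.card P)) (cT : (Nat.card W).Coprime (Nat.card T))
    (hf : P ⊓ C[W] = ⊥) (hWT : W ⊓ C[T] = ⊥) : K ≤ C[P] := by
  have := Fact.mk hs
  by_contra hcon
  have hB : ∀ a ∈ T, a ≠ 1 → T ≤ zpowers a := fun a ha h1 => (zpowers_eq_of_prime_card' hT ha h1).ge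
  have hTc : IsCyclic T := H69.isCyclic_of_prime_card' hT
  obtain ⟨hTZ', -⟩ := extraspecial_of_faithful hs hP hZ hZP h1 h3 hTc le_rfl hB
    (fun h => hcon (le_cent_of_commutator_eq hKT hKP h)) hTP hTZ cTP hW hPW hTW cP cT hf hWT
  obtain ⟨hE, hZE, hCE⟩ := extraspecial_commutator hs hP hZ hZP h1 h3 hKP cKP
    (le_cent_of_commutator_eq hKT (hKP.trans (normalizer_le_normalizer_center P)) hTZ') hcon
  have hgid := coprime_commGid hKP cKP (Or.inl hKs)
  have hEP : ⁅P, K⁆ ≤ P := commutator_le_of_norm_left hKP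
  have hTE : T ≤ N[⁅P, K⁆] := le_normalizer_commutator hTP hTK
  have hKE : K ≤ N[⁅P, K⁆] := le_norm_commutator_right _ _
  have hKE' : ¬ K ≤ C[⁅P, K⁆] := fun h => hcon (cent_symm (le_cent_of_commutator_eq_bot (by
    rw [← hgid]; exact commutator_eq_bot_of_cent' h)))
  generalize ⁅P, K⁆ = E at *
  have hZE' : Z ≤ E := hZE ▸ inf_le_left
  have hEs : Group.IsSolvable E := sol_p hs (hP.to_le hEP)
  obtain ⟨-, -, -, hC2, k, hk, hc1, hc2⟩ := extraspecial_of_faithful hs (hP.to_le hEP) hZ hZE.ge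
    ((commutator_mono hEP hEP).trans h1) (fun x hx => h3 x (hEP hx)) hTc le_rfl hB
    (fun h => hKE' (le_cent_of_commutator_eq hKT hKE h)) hTE hTZ (cop_le cTP le_rfl hEP) hW
    (hEP.trans hPW) hTW (cop_le cP le_rfl hEP) cT (fpf_mono hf hEP) hWT
  obtain ⟨m, -, hcE⟩ := H7.IsExtraspecial.card_eq hE
  have h4 := (coprime_cent_prod hTE (cop_le cTP le_rfl hEP) (Or.inr hEs)).card_mul_card_inf
  rw [← inf_assoc, inf_eq_left.mpr (commutator_le_of_norm_left hTE), hC2, hZ, hcE, hc1] at h4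
  have hEZ : E ≤ N[Z] := le_normalizer_of_le_centralizer' (hZE.ge.trans inf_le_right)
  have hTZn : T ≤ N[Z] := le_normalizer_of_le_centralizer hTZ
  have hKZn : K ≤ N[Z] := le_normalizer_of_le_centralizer' (hCE ▸ inf_le_right)
  have hcT : Nat.card (T /ᵍ Z) = Nat.card T := card_quo_of_disjoint hTZn
    (inf_eq_bot_of_coprime' (cop_le cTP.symm (hZE'.trans hEP) le_rfl))
  have h5 := wielandt_mod (E := E /ᵍ Z) (K := K /ᵍ Z) (T := T /ᵍ Z) (quo_isSolvable _ hEs)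
    (quo_norms _ hKE) (quo_norms _ hTE) (quo_norms _ hTK)
    (coprime_quo _ (cop_le cKP.symm hEP le_rfl)) (coprime_quo _ (cop_le cTP.symm hEP le_rfl))
    (coprime_quo _ cTK) (quo_isSolvable _ hKs) (H69.ne_bot_of_prime_card (hcT ▸ hT))
    (fun a ha ha1 => by
      rw [cent1_eq_of_prime_card (hcT ▸ hT) ha ha1,
        ← coprime_norm_quo_cent_of_coprime hTK hTZn cTK (Or.inr hKs)]
      exact quo_cents _ (hK.trans (centralizer_anti hEP)))
    (by
      rw [← coprime_norm_quo_cent_of_coprime hKE hKZn (cop_le cKP le_rfl hEP) (Or.inr hEs), hCE,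
        quo_self])
  rw [← coprime_norm_quo_cent_of_coprime hTE hTZn (cop_le cTP le_rfl hEP) (Or.inr hEs), hcT,
    hc2] at h5
  have h6 := card_quo_mul (⟨hZE', hEZ⟩ : Z ⊴ E)
  have h7 := card_quo_mul (⟨le_inf hZE' (cent_symm hTZ), inf_le_left.trans hEZ⟩ : Z ⊴ E ⊓ C[T])
  rw [hZ] at h6 h7
  rw [h5, hcE, pow_succ s] at h6
  rw [← h7, ← mul_assoc, pow_succ s (2 * m), pow_succ s (2 * k), mul_right_comm _ s (Nat.card _)] at h4
  generalize Nat.card ((E ⊓ C[T]) /ᵍ Z) = c at *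
  have h8 := Nat.eq_of_mul_eq_mul_right hs.pos h6
  have h9 := Nat.eq_of_mul_eq_mul_right hs.pos (Nat.eq_of_mul_eq_mul_right hs.pos h4)
  obtain ⟨j, -, rfl⟩ := (Nat.dvd_prime_pow hs).mp (Dvd.intro_left _ h9.symm)
  rw [← pow_mul] at h8
  rw [← pow_add] at h9
  have h10 := Nat.pow_right_injective hs.two_le h8
  have h11 := Nat.pow_right_injective hs.two_le h9
  have h12 : k < s ^ k := Nat.lt_pow_self hs.one_lt
  have h13 : j = 0 ∨ 2 ≤ j := by omega
  rcases h13 with rfl | h13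
  · omega
  · nlinarith

theorem commutator_sup_le {R T T' : Subgroup X} (hT : T ≤ N[R]) (hT' : T' ≤ N[R]) :
    ⁅R, T ⊔ T'⁆ ≤ ⁅R, T⁆ ⊔ ⁅R, T'⁆ := by
  have h : ⁅R, T⁆ ⊔ ⁅R, T'⁆ ≤ R :=
    sup_le (commutator_le_of_norm_left hT) (commutator_le_of_norm_left hT')
  exact commutator_le_of_le_stabMod (sup_le (le_stabMod_of_le h le_sup_left)
    (le_stabMod_of_le h le_sup_right))

theorem sup_cj_eq_of_pq {p q : ℕ} (hp : p.Prime) (hq : q.Prime) {A T : Subgroup X}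
    (hA : Nat.card A = p * q) (hT : T ≤ A) (h1 : T ≠ ⊥) (h2 : ¬ T ⊴ A) {a : X} (ha : a ∈ A)
    (haT : a ∉ T) : T ⊔ cj a T = A := by
  by_contra h
  have h3 := eq_of_sup_ne_pq hp hq hA _ _ hT (cj_le_of_mem ha hT) h1
    (fun hh => h1 (cj_eq_bot_iff.mp hh)) h
  have h4 : T ≤ A ⊓ N[T] := le_inf hT le_normalizer
  have h5 := eq_of_sup_ne_pq hp hq hA _ _ hT inf_le_left h1 (ne_bot_mono h1 h4) (by
    rw [sup_eq_right.mpr h4, Ne, inf_eq_left]
    exact fun hh => h2 ⟨hT, hh⟩)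
  exact haT (h5 ▸ ⟨ha, mem_normalizer_of_cj_le h3.ge⟩)

namespace Core

variable {t s r : ℕ} {A R P V : Subgroup X}

theorem cent_le_cj (h : Core t s r A R P V) {T N : Subgroup X} (hT : T ≤ A) (hP : P ≤ N[N])
    (hR : R ≤ N[N]) (hc : ⁅P, ⁅R, T⁆⁆ ≤ N) {a : X} (ha : a ∈ A) (hsup : T ⊔ cj a T = A) :
    P ⊓ C[⁅R, T⁆] ≤ cj a (N ⊔ ⁅P, P⁆) := by
  obtain ⟨-, hCR, -⟩ := h.struct
  have hP' : P ≤ N[cj a N] := by
    rw [← cj_normalizer, ← cj_eq_self (h.AP ha)]; exact cj_mono hP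
  have hR' : R ≤ N[cj a N] := by
    rw [← cj_normalizer, ← cj_eq_self (h.AR ha)]; exact cj_mono hR
  have hc' : ⁅P, ⁅R, cj a T⁆⁆ ≤ cj a N := by
    have := cj_mono (g := a) hc
    rwa [cj_commutator, cj_commutator, cj_eq_self (h.AP ha), cj_eq_self (h.AR ha)] at this
  have h1 := commutator_sup_le (hT.trans h.AR) ((cj_le_of_mem ha hT).trans h.AR)
  rw [hsup, h.commRA] at h1
  have h2 : ⁅R, T⁆ ≤ R := commutator_le_of_norm_left (hT.trans h.AR)
  have h3 : ⁅R, cj a T⁆ ≤ R := commutator_le_of_norm_left ((cj_le_of_mem ha hT).trans h.AR)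
  rw [cj_sup, cj_eq_self (le_normalizer_commutator h.AP h.AP ha),
    ← quo_le_quo_iff (inf_le_left.trans hP') ((commutator_le_of_le le_rfl le_rfl).trans hP')]
  refine le_trans ?_ (quo_mono _ hCR)
  rw [coprime_norm_quo_cent_of_coprime h.RP hR' h.cRP (Or.inr (sol_p h.hs h.pP))]
  refine le_inf (quo_mono _ inf_le_left) (cent_symm ((quo_mono _ h1).trans ?_))
  rw [quo_sup (h2.trans hR') (h3.trans hR')]
  exact sup_le (quo_cents _ (cent_symm inf_le_right))
    (cent_symm ((quo_mono _ inf_le_left).trans (quo_cents_of_commutator_le hc')))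

theorem normal_fpf {p q : ℕ} (hp : p.Prime) (hq : q.Prime) (h : Core t s r A R P V)
    (hA : Nat.card A = p * q) (hna : ¬ IsMulCommutative A) {T : Subgroup X} (hT : T ⊴ A)
    (h1 : T ≠ ⊥) (h2 : T ≠ A) : V ⊓ C[T] ≠ ⊥ := by
  have h3 : (Nat.card T).Prime ∧ (T.relIndex A).Prime := by
    rcases prime_card_of_lt_pq hp hq hA hT.le h1 h2 with h | h
    · exact ⟨h.1 ▸ hp, h.2 ▸ hq⟩
    · exact ⟨h.1 ▸ hq, h.2 ▸ hp⟩
  have hsP : s ∣ Nat.card P := dvd_card_of_isPGroup h.hs h.pP h.P_ne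
  have hcs : (Nat.card A).Coprime s := h.cP.coprime_dvd_right hsP
  refine H4.inf_cent_ne_bot_of_prime h.hs h3.1 ?_ rfl h.pP (hT.le.trans h.AP) h.el.1
    (hT.le.trans h.AV) h.PV (Nat.Coprime.mul_right (h.cVP.coprime_dvd_right hsP)
      (cop_le h.cV.symm le_rfl hT.le)) (fun hh => ?_) ?_
  · intro hh
    have := (hcs.coprime_dvd_left (card_dvd_of_le' hT.le))
    rw [← hh, Nat.coprime_self] at this
    exact h.hs.one_lt.ne' this
  · refine h.not_cent hT h3.2 (cent_symm (le_cent_of_commutator_eq_bot (le_bot_iff.mp ?_)))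
    rw [← h.faith]
    exact le_inf (commutator_le_of_norm_left (hT.le.trans h.AP)) hh
  · rintro rfl ⟨n, hn⟩
    exfalso
    apply hna
    refine isMulCommutative_of_quo_cyclic (N := T) (cent_symm ?_) hT.norm
      (H69.isCyclic_of_prime_card' (by rw [card_quo hT.norm]; exact h3.2))
    refine le_cent_of_prime_card_of_coprime h3.1 hT.norm ?_
    rw [hn, Nat.add_sub_cancel]
    exact hcs.pow_right n

theorem pq_false {p q : ℕ} (hp : p.Prime) (hq : q.Prime) (h : Core t s r A R P V)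
    (hA : Nat.card A = p * q) (hna : ¬ IsMulCommutative A) (hR : ⁅R, R⁆ ≤ C[P]) : False := by
  have hpr : ∀ T, T ≤ A → T ≠ ⊥ → T ≠ A → (Nat.card T).Prime ∧ (T.relIndex A).Prime := by
    intro T hT h1 h2
    rcases prime_card_of_lt_pq hp hq hA hT h1 h2 with h | h
    · exact ⟨h.1 ▸ hp, h.2 ▸ hq⟩
    · exact ⟨h.1 ▸ hq, h.2 ▸ hp⟩
  have hPs := sol_p h.hs h.pP
  have hRs := sol_p h.ht h.pR
  by_cases hab : ⁅P, P⁆ = ⊥
  · obtain ⟨T, N, hT, h1, h2, hN, hRN, hPT⟩ := h.abelian_case hab (eq_of_sup_ne_pq hp hq hA)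
    by_cases hTn : T ⊴ A
    · exact h.abelian_normal hab hTn (hpr T hT h1 h2).2 hN hRN hPT
    have hPc : IsMulCommutative P := derived_eq_bot_iff.mp hab
    have hc : ⁅P, ⁅R, T⁆⁆ ≤ N := commutator_le_of_le_stabMod
      ((commutator_mono le_rfl (le_stabMod_of_le hN.le hPT)).trans
        (commutator_le_of_norm_right (le_norm_stabMod h.RP hRN)))
    have hK : ⁅R, T⁆ ≤ R := commutator_le_of_norm_left (hT.trans h.AR)
    refine hN.not_ge ((coprime_cent_prod (hK.trans h.RP) (cop_le h.cRP hK le_rfl)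
      (Or.inr hPs)).le_of_le hc fun d hd => ?_)
    refine trace_lemma' hPc h.AP hT h.cP.symm h.fP hd.1 (fun a ha => hPT ?_) (fun a ha haT => ?_)
    · rw [commutator_comm]
      exact commutator_mem_commutator ha hd.1
    · have := h.cent_le_cj hT (normalIn_of_isMulCommutative hPc hN.le).norm hRN hc (inv_mem ha)
        (sup_cj_eq_of_pq hp hq hA hT h1 hTn (inv_mem ha) fun hh => haT (inv_mem_iff.mp hh)) hd
      rw [hab, sup_bot_eq] at this
      simpa using mem_cj.mp this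
  obtain ⟨hPR, hCR, hZP, hZR, hpow, hZe, -⟩ := h.struct
  set Z := ⁅P, P⁆ with hZ
  have hZle : Z ≤ P := commutator_le_of_le le_rfl le_rfl
  have hZn : P ≤ N[Z] := le_normalizer_commutator le_normalizer le_normalizer
  have hAZ : A ≤ N[Z] := le_normalizer_commutator h.AP h.AP
  have hRZ : R ≤ N[Z] := le_normalizer_commutator h.RP h.RP
  obtain ⟨Y, T, W, N, hw⟩ := exists_weight h.hs h.el.1 h.min.ne_bot hZe (le_inf hZle hZP) h.AV h.PV
    h.AP hAZ h.cV h.cVP h.cP (h.cent_eq_bot hZle hab hZn hRZ hAZ) h.fV (fpf_mono h.fP hZle)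
  have hT1 : T ≠ ⊥ := fun hh => hw.W_ne (by
    have := hw.fpf
    rwa [hh, centralizer_bot, inf_top_eq] at this)
  obtain ⟨hTp, hTi⟩ := hpr T hw.TA hT1 hw.ne
  have hWV : W ≤ V := hw.hW ▸ inf_le_left
  by_cases hTn : T ⊴ A
  · refine h.normal_fpf hp hq hA hna hTn hT1 hw.ne (h.fpf_of_cent hTn hTi hZle hab hZn hRZ hAZ
      (cent_symm (le_cent_of_commutator_eq_bot ?_)))
    by_contra hne
    have h1 : ⁅Z, T⁆ ≤ Z := hw.ZT.trans hw.le
    have h2 := h.cent_eq_bot (h1.trans hZle) hne (le_normalizer_of_le_centralizer' (h1.trans hZP))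
      (le_normalizer_of_le_centralizer' (h1.trans hZR)) (le_normalizer_commutator hAZ hTn.norm)
    apply hw.W_ne
    rw [eq_bot_iff, ← h2, hw.hW]
    exact inf_le_inf_left _ (centralizer_anti hw.ZT)
  have hPN := hw.NP.norm
  have hRW : R ≤ N[W] := hw.hW ▸ le_normalizer_inf h.RV (le_normalizer_centralizer
    (le_normalizer_of_le_centralizer' (hw.le.trans hZR)))
  have hRN : R ≤ N[N] := hw.hN ▸ le_normalizer_inf h.RP (le_normalizer_centralizer hRW)
  have hTR : T ≤ N[R] := hw.TA.trans h.AR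
  have hK : ⁅R, T⁆ ≤ R := commutator_le_of_norm_left hTR
  have hTK : T ≤ N[⁅R, T⁆] := le_norm_commutator_right _ _
  have hgid := coprime_commGid hTR (cop_le h.cR hw.TA le_rfl) (Or.inr hRs)
  have hKC : ⁅R, T⁆ ⊓ C[T] ≤ C[P] := by
    by_cases hK1 : ⁅R, T⁆ = ⊥
    · rw [hK1, bot_inf_eq]; exact bot_le
    have := Fact.mk h.ht
    exact (inf_centralizer_le_commutator (h.pR.to_le hK) hTK (coprime_prime_of_ne_bot h.ht
      (h.pR.to_le hK) hK1 (cop_le h.cR hw.TA hK)) hgid).trans ((commutator_mono hK hK).trans hR)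
  have hc : ⁅P, ⁅R, T⁆⁆ ≤ N := by
    rw [← quo_cents_iff hPN (hK.trans hRN)]
    refine cent_symm (cent_of_prime_faithful (Z := Z /ᵍ N) (T := T /ᵍ N) (W := W /ᵍ N) h.hs
      (quo_isPGroup _ h.pP) (hw.card_quo hZle) (le_inf (quo_mono _ hZle) (quo_cents _ hZP))
      (by rw [← quo_commutator hPN hPN]) ?_ (by rw [hw.card_T h.cP le_rfl]; exact hTp)
      (quo_norms _ (hw.TA.trans h.AP)) hw.cent_quo (quo_norms _ (hK.trans h.RP)) (quo_norms _ hTK)
      (by rw [← quo_commutator (hK.trans hRN) hw.TN, hgid]) ?_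
      (quo_isSolvable _ (isSolvable_of_le hRs hK)) (coprime_quo _ (cop_le h.cP hw.TA le_rfl))
      (coprime_quo _ (cop_le h.cRP hK le_rfl)) (coprime_quo _ (cop_le h.cR hw.TA hK))
      (quo_isMulCommutative _ (isMulCommutative_of_le h.el.1 hWV)) (quo_norms _ hw.PW)
      (quo_norms _ hw.TW) (coprime_quo _ (cop_le h.cVP hWV le_rfl))
      (coprime_quo _ (cop_le h.cV.symm hWV hw.TA)) (hw.faithful hPs h.cVP)
      (hw.fpf_quo (sol_p h.hr h.pV) h.cV))
    · intro x' hx'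
      obtain ⟨x, hx, hxN, rfl⟩ := mem_quo.mp hx'
      rw [← coset_pow hxN]
      exact coset_mem_quo (pow_mem hxN _) (hpow x hx)
    · rw [← coprime_norm_quo_cent_of_coprime hTK hw.TN (cop_le h.cR hw.TA hK)
        (Or.inr (isSolvable_of_le hRs hK))]
      exact quo_cents _ hKC
  have hM : N ⊔ Z ≤ P := sup_le hw.NP.le hZle
  refine hw.not_isMul rfl hZP h.AP h.cP h.fP hM ?_ ?_
  · rw [← quo_cents_iff (hM.trans hPN) hPN, sup_quo_left (hZle.trans hPN)]
    exact quo_cents _ hZP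
  · refine (coprime_cent_prod (hK.trans h.RP) (cop_le h.cRP hK le_rfl) (Or.inr hPs)).symm.mono
      (le_inf inf_le_left (le_iInf fun a => ?_)) inf_le_left (hc.trans le_sup_left) hM
    exact h.cent_le_cj hw.TA hPN hRN hc a.2.1 (sup_cj_eq_of_pq hp hq hA hw.TA hT1 hTn a.2.1 a.2.2)

end Core

theorem ch_two_of_pq {p q : ℕ} (hp : p.Prime) (hq : q.Prime) {A K : Subgroup X}
    (hA : Nat.card A = p * q) (hna : ¬ IsMulCommutative A) (hAK : A ≤ N[K])
    (hc : (Nat.card A).Coprime (Nat.card K)) (hs : Group.IsSolvable K) (hf : K ⊓ C[A] = ⊥) :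
    Ch 2 K := by
  refine ch_two_of_towers hAK hc hs hf fun t s r R P V ht hts hR hRK hPK hVK hAR h => ?_
  refine t3_reduction (fun X _ A _ => Nat.card A = p * q ∧ ¬ IsMulCommutative A) ?_ ?_
    X A R P V ⟨hA, hna⟩ ⟨h, ht, hts, hR, hAR, cop_le hc le_rfl hRK, fpf_mono hf hRK⟩
  · rintro X _ _ A R N ⟨h1, h2⟩ hAN - hc
    have hi := inf_eq_bot_of_coprime' hc.symm
    refine ⟨by rw [card_quo_of_disjoint hAN hi, h1], fun hh => h2 ?_⟩
    let e := quoEquivOfDisjoint hAN hi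
    exact ⟨⟨fun a b => e.injective (by rw [map_mul, map_mul, mul_comm])⟩⟩
  · rintro X _ _ A R P V ⟨h1, h2⟩ h hmin
    refine h.pq_false hp hq h1 h2 (hmin _ (commutator_lt_of_isSolvable (sol_p h.ht h.pR)
      fun hh => h.nt (by simp [hh])) (le_normalizer_commutator h.AR h.AR) ⟨h1, h2⟩)

end Cfsg.Agent.H88
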