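import Mathlib
import Cfsg.Agent.H88.FpfPQ

/-! Fixed-point-free automorphisms of order a power of two. -/

set_option autoImplicit false
set_option linter.unusedSectionVars false
set_option linter.unusedVariables false

namespace Cfsg.Agent.H88

open Cfsg Cfsg.Agent.H63 Cfsg.Agent.H67 Cfsg.Agent.H69 Subgroup
open scoped IsMulCommutative commutatorElement

universe u

variable {X : Type u} [Group X] [Finite X]

theorem exists_min_of_isCyclic {p : ℕ} (hp : p.Prime) {T : Subgroup X} (hT : IsCyclic T)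
    (hp' : IsPGroup p T) (h1 : T ≠ ⊥) : ∃ B, B ≤ T ∧ B ≠ ⊥ ∧ ∀ a ∈ T, a ≠ 1 → B ≤ zpowers a := by
  have := Fact.mk hp
  obtain ⟨τ, -, rfl⟩ := exists_zpowers_eq_of_isCyclic hT
  obtain ⟨m, hm⟩ := hp'.exists_card_eq
  rw [Nat.card_zpowers] at hm
  rcases m with _ | m
  · rw [pow_zero, orderOf_eq_one_iff] at hm
    exact absurd (zpowers_eq_bot.mpr hm) h1
  · refine ⟨zpowers (τ ^ p ^ m), zpowers_le.mpr (pow_mem (mem_zpowers _) _), fun h => ?_,
      fun a ha ha1 => zpowers_le.mpr (H4.HH.pow_mem_zpowers_of_ne_one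
        (hm ▸ pow_orderOf_eq_one τ) ha ha1)⟩
    have := orderOf_dvd_of_pow_eq_one (zpowers_eq_bot.mp h)
    rw [hm, Nat.pow_dvd_pow_iff_le_right hp.one_lt] at this
    omega

theorem eq_one_of_pow_add_one {s k m : ℕ} (hs : 2 ≤ s) (hodd : Odd s) (hk : 1 ≤ k)
    (h : 2 ^ m = s ^ k + 1) : k = 1 := by
  have hsk : s ≤ s ^ k := Nat.le_self_pow (by omega) s
  have hs3 : 3 ≤ s := by
    obtain ⟨c, rfl⟩ := hodd
    omega
  rcases Nat.even_or_odd k with ⟨c, rfl⟩ | hko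
  · exfalso
    have h1 : 2 ^ 2 ∣ 2 ^ m := pow_dvd_pow 2 (by
      by_contra hm
      have : 2 ^ m ≤ 2 ^ 1 := Nat.pow_le_pow_right (by norm_num) (by omega)
      omega)
    obtain ⟨d, hd⟩ := hodd.pow (n := c)
    rw [h, pow_add, hd] at h1
    have : (2 * d + 1) * (2 * d + 1) + 1 = 4 * (d * d + d) + 2 := by ring
    omega
  · have h1 : s + 1 ∣ 2 ^ m := by simpa [h] using hko.nat_add_dvd_pow_add_pow s 1
    obtain ⟨j, -, hj⟩ := (Nat.dvd_prime_pow Nat.prime_two).mp h1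
    obtain ⟨c, rfl⟩ := hko
    have h2 : s ^ 2 ≡ 1 [MOD 2 * (s + 1)] := by
      obtain ⟨d, rfl⟩ := hodd
      refine ((Nat.modEq_iff_dvd' (Nat.one_le_pow _ _ (by omega))).mpr ⟨d, ?_⟩).symm
      have : (2 * d + 1) ^ 2 = 2 * (2 * d + 1 + 1) * d + 1 := by ring
      omega
    have h3 : s ^ (2 * c + 1) + 1 ≡ s + 1 [MOD 2 * (s + 1)] := by
      refine Nat.ModEq.add_right 1 ?_
      have := (h2.pow c).mul_right s
      rwa [one_pow, one_mul, ← pow_mul, ← pow_succ] at this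
    have h4 : m ≤ j := by
      by_contra hm
      have h5 : 2 * (s + 1) ∣ 2 ^ m := by
        rw [hj, ← pow_succ']
        exact pow_dvd_pow 2 (by omega)
      rw [h] at h5
      have := Nat.le_of_dvd (by omega) ((h3.dvd_iff dvd_rfl).mp h5)
      omega
    have h6 : s ^ (2 * c + 1) ≤ s ^ 1 := by
      have := Nat.pow_le_pow_right (by norm_num : 0 < 2) h4
      rw [pow_one]
      omega
    have := (Nat.pow_le_pow_iff_right (by omega)).mp h6
    omega

theorem cent_of_exceptional {s p : ℕ} (hs : s.Prime) (hp : p.Prime) {P Z B T W : Subgroup X}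
    (hP : IsPGroup s P) (hZ : Nat.card Z = s) (hZP : Z[P] = Z) (h1 : ⁅P, P⁆ ≤ Z)
    (h3 : ∀ x ∈ P, x ^ s ∈ Z) (hT : IsCyclic T) (hTp : IsPGroup p T) (hBT : B ≤ T)
    (hB : ∀ a ∈ T, a ≠ 1 → B ≤ zpowers a) (hTP : T ≤ N[P]) (hTZ : T ≤ C[Z])
    (hc : (Nat.card T).Coprime (Nat.card P)) (hW : IsMulCommutative W) (hPW : P ≤ N[W])
    (hTW : T ≤ N[W]) (cP : (Nat.card W).Coprime (Nat.card P))
    (cT : (Nat.card W).Coprime (Nat.card T)) (hf : W ⊓ C[Z] = ⊥) (hWT : W ⊓ C[T] = ⊥)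
    (hW1 : W ≠ ⊥) (hE : IsExtraspecial s ↥⁅P, B⁆) (hZE : Z[⁅P, B⁆] = Z) (hCE : ⁅P, B⁆ ⊓ C[B] = Z)
    (hcE : Nat.card ↥⁅P, B⁆ = s ^ (2 * 1 + 1)) (hcT : Nat.card T = s ^ 1 + 1) :
    T ≤ C[P ⊓ C[B]] := by
  have := Fact.mk hs
  by_contra hcon
  have hTB : T ≤ N[B] := (normalIn_of_isMulCommutative inferInstance hBT).norm
  have hB1 : B ≠ ⊥ := by
    rintro rfl
    rw [commutator_bot_right, card_bot] at hcE
    exact (Nat.one_lt_pow (by omega) hs.one_lt).ne hcE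
  have hEP : ⁅P, B⁆ ≤ P := commutator_le_of_norm_left (hBT.trans hTP)
  have hZle : Z ≤ P := hZP ▸ inf_le_left
  have hZC : Z ≤ C[P] := hZP ▸ inf_le_right
  have hZ1 : Z ≠ ⊥ := H69.ne_bot_of_prime_card (hZ ▸ hs)
  set E := P ⊓ C[B] with hE'
  set T₁ := T ⊓ C[E] with hT₁
  have hTE : T ≤ N[E] := le_normalizer_inf hTP (le_normalizer_centralizer hTB)
  have hT₁n : T₁ ⊴ T := inf_centralizer_normalIn hTE
  have hBT₁ : B ≤ T₁ := le_inf hBT (cent_symm inf_le_right)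
  have hlt : T₁ < T := lt_of_le_of_ne inf_le_left fun h => hcon (inf_eq_left.mp h)
  have hTE' : T₁ ≤ N[⁅P, B⁆] := inf_le_left.trans (le_normalizer_commutator hTP hTB)
  have hW₁ : W ⊓ C[T₁] ≠ ⊥ := by
    refine repr_extraspecial_prime_sdprod_cycle_cent hE
      (isSdp_sup_of_coprime hTE' (cop_le hc.symm hEP inf_le_left)) (isCyclic_of_le hlt.le) hcE
      (coprime_prime_of_ne_bot hs hP (ne_bot_mono hZ1 hZle) (cop_le hc inf_le_left le_rfl)).symm ?_
      (hcT ▸ (card_lt_of_lt hlt).ne) (isSolvable_of_comm' hW)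
      (sup_le (hEP.trans hPW) (inf_le_left.trans hTW))
      (coprime_sup (Or.inr hTE') (cop_le cP le_rfl hEP) (cop_le cT le_rfl inf_le_left)) ?_
    · intro a ha ha1
      rw [hZE]
      refine le_antisymm ?_ (le_inf (hCE ▸ inf_le_left) ?_)
      · rw [← hCE, ← centralizer_zpowers]
        exact inf_le_inf_left _ (centralizer_anti (hB a ha.1 ha1))
      · rw [← centralizer_zpowers]
        exact cent_symm ((zpowers_le.mpr ha.1).trans hTZ)
    · rw [hZE]
      exact fun h => hW1 (le_bot_iff.mp (hf ▸ le_inf le_rfl (cent_symm h)))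
  set W₁ := W ⊓ C[T₁]
  have hZE' : Z ≤ E := le_inf hZle (hCE ▸ inf_le_right)
  have hEW : E ≤ N[W₁] := le_normalizer_inf (inf_le_left.trans hPW) (le_normalizer_centralizer
    (le_normalizer_of_le_centralizer' inf_le_right))
  have hTW₁ : T ≤ N[W₁] := le_normalizer_inf hTW (le_normalizer_centralizer hT₁n.norm)
  have hZZ : Z[E] ≤ Z := by
    rw [← hZP]
    refine le_inf (inf_le_left.trans inf_le_left) (cent_symm ?_)
    refine (coprime_cent_prod (hBT.trans hTP) (cop_le hc hBT le_rfl)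
      (Or.inr (sol_p hs hP))).le_of_le ?_ (cent_symm inf_le_right)
    refine le_trans (le_cent_of_commutator_eq_bot (three_subgroup ?_ ?_))
      (centralizer_anti inf_le_left)
    · rw [commutator_eq_bot_of_cent' (inf_le_right : P ⊓ C[B] ≤ C[B]), commutator_bot_left]
    · exact commutator_eq_bot_of_cent (((commutator_mono inf_le_left le_rfl).trans h1).trans
        (hCE ▸ inf_le_right))
  have hfa : E ⊓ C[W₁] = ⊥ := by
    by_contra hne
    have h4 := inf_center_ne_bot_of_isNilpotent (hP.to_le (inf_le_left : E ≤ P)).isNilpotent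
      (inf_centralizer_normalIn hEW) hne
    have h5 := eq_of_le_of_prime_card (hZ ▸ hs) (inf_le_right.trans hZZ) h4
    apply hW₁
    rw [eq_bot_iff, ← hf]
    exact le_inf inf_le_left (cent_symm (h5 ▸ inf_le_left.trans inf_le_right))
  have hEN : E ≤ N[T₁] := le_normalizer_of_le_centralizer' inf_le_right
  have hWN : W₁ ≤ N[T₁] := le_normalizer_of_le_centralizer inf_le_right
  obtain ⟨B', hB'T, hB'1, hB'⟩ := exists_min_of_isCyclic hp (quo_isCyclic T₁ hT)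
    (quo_isPGroup _ hTp) (quo_ne_bot hlt hT₁n.norm)
  have cE : (Nat.card E).Coprime (Nat.card T₁) := cop_le hc.symm inf_le_left inf_le_left
  have hEs : Group.IsSolvable E := sol_p hs (hP.to_le inf_le_left)
  obtain ⟨-, -, -, -, k, hk, -, hc2⟩ := extraspecial_of_faithful (P := E /ᵍ T₁) (Z := Z /ᵍ T₁)
    (B := B') (T := T /ᵍ T₁) (W := W₁ /ᵍ T₁) hs (quo_isPGroup _ (hP.to_le inf_le_left))
    (by rw [card_quo_of_disjoint (hZE'.trans hEN)
      (inf_eq_bot_of_coprime' (cop_le cE.symm le_rfl hZE')), hZ])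
    (le_inf (quo_mono _ hZE') (quo_cents _ (hZC.trans (centralizer_anti inf_le_left))))
    (by
      rw [← quo_commutator hEN hEN]
      exact quo_mono _ ((commutator_mono inf_le_left inf_le_left).trans h1))
    (by
      intro x' hx'
      obtain ⟨x, hx, hxN, rfl⟩ := mem_quo.mp hx'
      rw [← coset_pow hxN]
      exact coset_mem_quo (pow_mem hxN _) (h3 x hx.1))
    (quo_isCyclic _ hT) hB'T hB'
    (fun hh => hB'1 (le_bot_iff.mp (by
      have := le_inf hB'T hh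
      rwa [← H63.coprime_quo_cent hlt.le hEN cE (Or.inl hEs), quo_self] at this)))
    (quo_norms _ hTE) (quo_cents _ hTZ) (coprime_quo _ (cop_le hc le_rfl inf_le_left))
    (quo_isMulCommutative _ (isMulCommutative_of_le hW inf_le_left)) (quo_norms _ hEW)
    (quo_norms _ hTW₁) (coprime_quo _ (cop_le cP inf_le_left inf_le_left))
    (coprime_quo _ (cop_le cT inf_le_left le_rfl))
    (by
      have hs' := isSolvable_of_comm' (isMulCommutative_of_le hW (inf_le_left : W₁ ≤ W))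
      rw [eq_bot_iff]
      rintro x' ⟨hx', hxW⟩
      obtain ⟨x, hx, hxN, rfl⟩ := mem_quo.mp hx'
      have h4 : zpowers x ≤ E := zpowers_le.mpr hx
      replace hxW := (zpowers_le (H := C[W₁ /ᵍ T₁])).mpr hxW
      rw [← quo_zpowers hxN, quo_cents_iff (h4.trans hEN) hWN] at hxW
      have h5 : ⁅zpowers x, W₁⁆ = ⊥ := by
        rw [eq_bot_iff, ← inf_eq_bot_of_coprime' (cop_le cT (inf_le_left : W₁ ≤ W)
          (inf_le_left : T₁ ≤ T))]
        exact le_inf (commutator_le_of_norm_right (h4.trans hEW)) hxW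
      rw [mem_bot.mp (hfa ▸ ⟨hx, le_cent_of_commutator_eq_bot h5 (mem_zpowers x)⟩ : x ∈ ⊥), coset_one]
      exact one_mem _)
    (fpf_quo hTW₁ hT₁n.norm (cop_le cT.symm le_rfl inf_le_left)
      (isSolvable_of_comm' (isMulCommutative_of_le hW inf_le_left)) (fpf_mono hWT inf_le_left))
  have h6 := card_quo_lt hT₁n (ne_bot_mono hB1 hBT₁)
  have h7 : s ^ 1 ≤ s ^ k := Nat.pow_le_pow_right hs.pos hk
  omega

theorem cent_of_involution {s t : ℕ} (hs : s.Prime) (ht : t.Prime) (hts : t ≠ s)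
    {P Z R T : Subgroup X} {σ : X} (hP : IsPGroup s P) (hZ : Nat.card Z = s) (hZP : Z[P] = Z)
    (h1 : ⁅P, P⁆ ≤ Z) (h3 : ∀ x ∈ P, x ^ s ∈ Z) (hR : IsPGroup t R) (hRP : R ≤ N[P])
    (hRZ : R ≤ C[Z]) (hf : R ⊓ C[P] = ⊥) (hT : IsCyclic T) (hσ : σ ∈ T) (hσ2 : orderOf σ = 2)
    (hB : ∀ a ∈ T, a ≠ 1 → zpowers σ ≤ zpowers a) (hTP : T ≤ N[P]) (hTR : T ≤ N[R])
    (hTZ : T ≤ C[Z]) (cP : (Nat.card T).Coprime (Nat.card P))
    (cR : (Nat.card T).Coprime (Nat.card R)) (hcE : Nat.card ↥⁅P, zpowers σ⁆ = s ^ (2 * 1 + 1))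
    (hcT : 2 < Nat.card T) (hTC : T ≤ C[P ⊓ C[zpowers σ]]) : ⁅R, zpowers σ⁆ = ⊥ := by
  have := Fact.mk hs
  have := Fact.mk ht
  by_contra hcon
  set B := zpowers σ with hBσ
  have hBT : B ≤ T := zpowers_le.mpr hσ
  have hTB : T ≤ N[B] := (normalIn_of_isMulCommutative inferInstance hBT).norm
  have hcB : Nat.card B = 2 := by rw [Nat.card_zpowers, hσ2]
  have hB1 : B ≠ ⊥ := H69.ne_bot_of_prime_card (hcB ▸ Nat.prime_two)
  have hPs := sol_p hs hP
  have cRP := coprime_pp ht hs hts hR hP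
  have hZle : Z ≤ P := hZP ▸ inf_le_left
  have hPZ : P ≤ N[Z] := le_normalizer_of_le_centralizer' (hZP ▸ inf_le_right)
  have hTZn : T ≤ N[Z] := le_normalizer_of_le_centralizer hTZ
  have hRZn : R ≤ N[Z] := le_normalizer_of_le_centralizer hRZ
  have hfa : ∀ D, D ≤ R → ⁅P, D⁆ ≤ Z → D = ⊥ := fun D hD h => by
    rw [eq_bot_iff, ← hf]
    refine le_inf hD (cent_symm (le_cent_of_commutator_eq_bot ?_))
    rw [← coprime_commGid (hD.trans hRP) (cop_le cRP hD le_rfl) (Or.inr hPs)]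
    exact commutator_eq_bot_of_cent (h.trans (cent_symm (hD.trans hRZ)))
  obtain ⟨S, -, ⟨hSR, hTS, hS⟩, hmin⟩ := exists_minimal_le
    (fun S => S ≤ R ∧ T ≤ N[S] ∧ ⁅S, B⁆ ≠ ⊥) ⟨le_rfl, hTR, hcon⟩
  have hmin' : ∀ U, U < S → T ≤ N[U] → ⁅U, B⁆ = ⊥ := fun U hU hTU => by
    by_contra hne
    exact hU.ne (hmin U ⟨hU.le.trans hSR, hTU, hne⟩ hU.le)
  obtain ⟨hSB, hCB, hZS, hZB, hpow, hZe, -⟩ := minimal_structure ht (hR.to_le hSR) hTS hBT hTB
    (cop_le cR hBT hSR) hS hmin'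
  have hS1 : S ≠ ⊥ := fun h => hS (by simp [h])
  have hSP : S ≤ N[P] := hSR.trans hRP
  have hSs := sol_p ht (hR.to_le hSR)
  have hUc : IsMulCommutative (P /ᵍ Z) := quo_isMulCommutative_of_der_le h1
  by_cases hab : ⁅S, S⁆ = ⊥
  · have hE : ⁅P, S⁆ ≤ P := commutator_le_of_norm_left hSP
    have hTE : T ≤ N[⁅P, S⁆] := le_normalizer_commutator hTP hTS
    have key : ∀ T', B ≤ T' → T' ≤ T → Nat.card (⁅P, S⁆ /ᵍ Z) =
        Nat.card ((⁅P, S⁆ ⊓ C[B]) /ᵍ Z) ^ Nat.card T' := by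
      intro T' h4 h5
      have hcT' : Nat.card (T' /ᵍ Z) = Nat.card T' := card_quo_of_disjoint (h5.trans hTZn)
        (inf_eq_bot_of_coprime' (cop_le cP.symm hZle h5))
      have h6 := wielandt_mod (E := ⁅P, S⁆ /ᵍ Z) (K := S /ᵍ Z) (T := T' /ᵍ Z)
        (quo_isSolvable _ (isSolvable_of_le hPs hE)) (quo_norms _ (le_norm_commutator_right _ _))
        (quo_norms _ (h5.trans hTE)) (quo_norms _ (h5.trans hTS))
        (coprime_quo _ (cop_le cRP.symm hE hSR)) (coprime_quo _ (cop_le cP.symm hE h5))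
        (coprime_quo _ (cop_le cR h5 hSR)) (quo_isSolvable _ hSs)
        (fun hh => hB1 (le_bot_iff.mp (card_eq_one.mp (by rw [← hcT', hh, card_bot]) ▸ h4)))
        (by
          intro a' ha' ha1
          obtain ⟨a, ha, haN, rfl⟩ := mem_quo.mp ha'
          rw [← centralizer_zpowers, ← quo_zpowers haN, ← coprime_norm_quo_cent_of_coprime
            ((zpowers_le.mpr (h5 ha)).trans hTS) (zpowers_le.mpr haN)
            (cop_le cR (zpowers_le.mpr (h5 ha)) hSR) (Or.inr hSs)]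
          refine le_trans (quo_mono _ ((inf_le_inf_left _ (centralizer_anti (hB a (h5 ha)
            fun hh => ha1 (by rw [hh, coset_one])))).trans hCB)) ?_
          rw [hab, bot_quo]
          exact bot_le)
        (by
          rw [quo_commutator hPZ (hSR.trans hRZn)]
          exact coprime_abel_cent_TI (quo_norms _ hSP) (coprime_quo _ (cop_le cRP hSR le_rfl)) hUc)
      rw [← coprime_norm_quo_cent_of_coprime (h5.trans hTE) (h5.trans hTZn) (cop_le cP h5 hE)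
        (Or.inr (isSolvable_of_le hPs hE)), hcT'] at h6
      rw [h6, show ⁅P, S⁆ ⊓ C[T'] = ⁅P, S⁆ ⊓ C[B] from ?_]
      exact le_antisymm (inf_le_inf_left _ (centralizer_anti h4)) (le_inf inf_le_left
        ((inf_le_inf_right _ hE).trans (cent_symm (h5.trans hTC))))
    have h4 := key T hBT le_rfl
    have h5 := key B le_rfl hBT
    rw [hcB] at h5
    have h6 : Nat.card ((⁅P, S⁆ ⊓ C[B]) /ᵍ Z) = 1 := by
      by_contra hne
      have h7 : 1 < Nat.card ((⁅P, S⁆ ⊓ C[B]) /ᵍ Z) := lt_of_le_of_ne Nat.card_pos (Ne.symm hne)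
      have := Nat.pow_right_injective h7 (h4.symm.trans h5)
      omega
    rw [h6, one_pow] at h5
    exact hS1 (hfa S hSR ((quo_eq_bot_iff (hE.trans hPZ)).mp (card_eq_one.mp h5)))
  have hσσ : σ * σ = 1 := by rw [← pow_two, ← hσ2, pow_orderOf_eq_one]
  have hσinv : σ⁻¹ = σ := inv_eq_of_mul_eq_one_right hσσ
  obtain ⟨y, hyS, hyC, hyσ⟩ : ∃ y ∈ S, y ∉ C[S] ∧ σ * y * σ⁻¹ = y⁻¹ := by
    by_contra hh
    push Not at hh
    apply hab
    refine commutator_eq_bot_of_cent ?_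
    conv_lhs => rw [← hSB]
    rw [commutator_le]
    intro g hg b hb
    by_cases hb1 : b = 1
    · simp [hb1]
    have hbσ : b = σ := by
      have h4 : b ∈ zpowers σ := hb
      classical
      rw [mem_zpowers_iff_mem_range_orderOf, hσ2, Finset.mem_image] at h4
      obtain ⟨i, hi, rfl⟩ := h4
      rw [Finset.mem_range] at hi
      interval_cases i
      · simp at hb1
      · simp
    subst hbσ
    by_contra hc
    refine hh _ (hSB ▸ commutator_mem_commutator hg hb) hc ?_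
    rw [commutatorElement_def, hσinv]
    simp only [mul_inv_rev, inv_inv, hσinv, mul_assoc, hσσ, mul_one]
  have hodd : (orderOf σ).Coprime (Nat.card R) := (cop_le cR hBT le_rfl).coprime_dvd_left
    (orderOf_dvd_card_of_mem (mem_zpowers σ))
  rw [hσ2] at hodd
  have hinv : ∀ x ∈ S, σ * x * σ⁻¹ = x⁻¹ → x ∈ C[B] → x = 1 := fun x hx h4 h5 => by
    rw [h5 σ (mem_zpowers σ), mul_inv_cancel_right] at h4
    refine orderOf_eq_one_iff.mp (Nat.Coprime.eq_one_of_dvd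
      (hodd.symm.coprime_dvd_left (orderOf_dvd_card_of_mem (hSR hx))) (orderOf_dvd_of_pow_eq_one ?_))
    rw [pow_two]
    exact mul_eq_one_iff_eq_inv.mpr h4
  have key : ∀ x ∈ S, x ≠ 1 → σ * x * σ⁻¹ = x⁻¹ → P ⊓ C1[x] ≤ C[S] := by
    intro x hx hx1 hxσ
    have hD : zpowers x ≤ S := zpowers_le.mpr hx
    have hBD : B ≤ N[zpowers x] := zpowers_le.mpr (mem_normalizer_of_cj_le (by
      rw [cj_zpowers, hxσ, zpowers_inv]))
    have hDB : ⁅zpowers x, B⁆ = zpowers x := by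
      refine coprime_commutator_eq_of_cent_eq_bot hBD (cop_le cR hBT (hD.trans hSR))
        (Or.inr (isSolvable_of_le hSs hD)) (eq_bot_iff.mpr ?_)
      rintro _ ⟨⟨i, rfl⟩, h4⟩
      refine hinv _ (zpow_mem hx i) ?_ h4
      rw [← conj_zpow, hxσ, inv_zpow]
    have hDP : ¬ zpowers x ≤ C[P] := fun h => hx1 (zpowers_eq_bot.mp
      (le_bot_iff.mp (hf ▸ le_inf (hD.trans hSR) h)))
    obtain ⟨hE, hZE, hCE⟩ := extraspecial_commutator hs hP hZ hZP.ge h1 h3 (hD.trans hSP)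
      (cop_le cRP (hD.trans hSR) le_rfl) (hZP.symm ▸ (hD.trans hSR).trans hRZ) hDP
    have hEP : ⁅P, zpowers x⁆ ≤ P := commutator_le_of_norm_left (hD.trans hSP)
    have hBE : B ≤ N[⁅P, zpowers x⁆] := le_normalizer_commutator (hBT.trans hTP) hBD
    obtain ⟨hE2, -, -⟩ := extraspecial_commutator hs (hP.to_le hEP) hZ hZE.ge
      ((commutator_mono hEP hEP).trans h1) (fun x hx => h3 x (hEP hx)) hBE (cop_le cP hBT hEP)
      (hZE.symm ▸ hBT.trans hTZ) (fun h => hDP (cent_symm (le_cent_of_commutator_eq_bot (by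
        rw [← coprime_commGid (hD.trans hSP) (cop_le cRP (hD.trans hSR) le_rfl) (Or.inr hPs)]
        exact commutator_eq_bot_of_cent' (le_cent_of_commutator_eq hDB
          (le_norm_commutator_right _ _) h)))))
    obtain ⟨j, hj, hcj⟩ := H7.IsExtraspecial.card_eq hE2
    have h4 : ⁅⁅P, zpowers x⁆, B⁆ = ⁅P, B⁆ := eq_of_le_of_card_ge (commutator_mono hEP le_rfl) (by
      rw [hcE, hcj]
      exact Nat.pow_le_pow_right hs.pos (by omega))
    have h5 : ⁅P, B⁆ ≤ ⁅P, zpowers x⁆ := h4 ▸ commutator_le_of_norm_left hBE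
    rw [← centralizer_zpowers]
    set D := P ⊓ C[zpowers x]
    have hBD' : B ≤ N[D] := le_normalizer_inf (hBT.trans hTP) (le_normalizer_centralizer hBD)
    have h6 : D ≤ C[B] := by
      refine le_cent_of_commutator_eq_bot ?_
      rw [← coprime_commGid hBD' (cop_le cP hBT inf_le_left)
        (Or.inr (isSolvable_of_le hPs inf_le_left))]
      refine commutator_eq_bot_of_cent (le_trans ?_ (cent_symm (hBT.trans hTZ)))
      rw [← hCE]
      exact le_inf ((commutator_mono inf_le_left le_rfl).trans h5)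
        ((commutator_le_of_norm_left hBD').trans inf_le_right)
    have h7 : T ≤ C[D] := hTC.trans (centralizer_anti (le_inf inf_le_left h6))
    have hxD : x ∈ S ⊓ C[D] := ⟨hx, cent_symm (inf_le_right : D ≤ _) (mem_zpowers x)⟩
    refine cent_symm (inf_eq_left.mp (hmin (S ⊓ C[D]) ⟨inf_le_left.trans hSR,
      le_normalizer_inf hTS (h7.trans le_normalizer), fun h => hx1 (hinv x hx hxσ
        (le_cent_of_commutator_eq_bot h hxD))⟩ inf_le_left))
  obtain ⟨g, hg, hgy⟩ : ∃ g ∈ S, ⁅g, y⁆ ≠ 1 := by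
    by_contra hh
    push Not at hh
    exact hyC fun g hg => commutatorElement_eq_one_iff_mul_comm.mp (hh g hg)
  set z := ⁅g, y⁆ with hz
  have hzZ : z ∈ ⁅S, S⁆ := commutator_mem_commutator hg hyS
  have hZS' : ⁅S, S⁆ ≤ S := commutator_le_of_le le_rfl le_rfl
  have hzo : orderOf z = t := orderOf_eq_prime (hZe.2 z hzZ) hgy
  have hzp : (Nat.card (zpowers z)).Prime := by rw [Nat.card_zpowers, hzo]; exact ht
  have hy1 : y ≠ 1 := fun h => hyC (h ▸ one_mem _)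
  have hyt : y ^ t = 1 := hinv _ (pow_mem hyS t) (by rw [← conj_pow, hyσ, inv_pow]) (hZB (hpow y hyS))
  have hyp : (Nat.card (zpowers y)).Prime := by
    rw [Nat.card_zpowers, orderOf_eq_prime hyt hy1]; exact ht
  have hyz : zpowers z ≤ C[zpowers y] :=
    (zpowers_le.mpr (hZS hzZ)).trans (centralizer_anti (zpowers_le.mpr hyS))
  have hA : IsElementaryAbelian t (zpowers y ⊔ zpowers z) :=
    elemAb_sup (elemAb_zpowers hyt) (elemAb_zpowers (hZe.2 z hzZ)) (cent_symm hyz)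
  have hAS : zpowers y ⊔ zpowers z ≤ S := sup_le (zpowers_le.mpr hyS) (zpowers_le.mpr (hZS' hzZ))
  have hnc : ¬ IsCyclic ↥(zpowers y ⊔ zpowers z) := fun hc => by
    have h4 := card_le_of_abelem_of_isCyclic ht hA.2 hc
    have h5 : zpowers z = zpowers y ⊔ zpowers z := eq_of_le_of_card_ge le_sup_right (by
      rw [Nat.card_zpowers, hzo]; exact Nat.le_of_dvd ht.pos h4)
    exact hyC (hZS ((zpowers_le.mpr hzZ) (h5 ▸ mem_sup_left (mem_zpowers y))))
  have hP' : P ≤ C1[z] := by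
    refine coprime_abelian_gen_cent1 hA.1 hnc (hAS.trans hSP) (cop_le cRP (hAS.trans hSR) le_rfl) ?_
    intro a ha ha1
    obtain ⟨_, ⟨i, rfl⟩, w, hw, rfl⟩ := (mem_sup_of_le_normalizer'
      (le_normalizer_of_le_centralizer hyz)).mp ha
    simp only at ha1 ⊢
    by_cases hi : y ^ i = 1
    · rw [hi, one_mul] at ha1 ⊢
      rw [cent1_eq_of_prime_card hzp hw ha1, centralizer_zpowers]
      exact inf_le_right
    have h4 : ⁅g, y ^ i⁆ = z ^ i := H7.comm_zpow_right (hZS hzZ y hyS) i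
    have h5 : z ^ i ≠ 1 := fun h => hi (by
      rw [← orderOf_dvd_iff_zpow_eq_one, hzo, ← orderOf_eq_prime hyt hy1,
        orderOf_dvd_iff_zpow_eq_one] at h
      exact h)
    rw [← zpowers_eq_of_prime_card' hzp (zpow_mem (mem_zpowers z) i) h5] at hw
    obtain ⟨l, rfl⟩ := hw
    have h6 : ⁅g ^ l, y ^ i⁆ = (z ^ i) ^ l := by
      rw [← h4]
      exact H7.comm_zpow_left (hZS (commutator_mem_commutator hg (zpow_mem hyS i)) g hg) l
    have h7 : y ^ i * (z ^ i) ^ l = g ^ l * y ^ i * (g ^ l)⁻¹ := by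
      rw [hZS (zpow_mem (zpow_mem hzZ i) l) _ (zpow_mem hyS i), ← h6, commutatorElement_def,
        inv_mul_cancel_right]
    have h8 := cj_mono (g := g ^ l) (key (y ^ i) (zpow_mem hyS i) hi (by
      rw [← conj_zpow, hyσ, inv_zpow]))
    rw [cj_inf, cj_eq_self (hSP (zpow_mem hg l)), cj_centralizer_singleton, cj_centralizer,
      cj_eq_self_of_mem (zpow_mem hg l)] at h8
    simp only
    rw [h7, ← centralizer_zpowers z]
    exact h8.trans (centralizer_anti (zpowers_le.mpr (hZS' hzZ)))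
  apply hgy
  rw [← mem_bot, ← hf]
  refine ⟨hSR (hZS' hzZ), zpowers_le.mp (cent_symm ?_)⟩
  rwa [centralizer_zpowers]

theorem cent_of_involution' {s t : ℕ} (hs : s.Prime) (ht : t.Prime) (hts : t ≠ s)
    {P Z R T : Subgroup X} {σ : X} (hP : IsPGroup s P) (hZ : Nat.card Z = s) (hZP : Z[P] = Z)
    (h1 : ⁅P, P⁆ ≤ Z) (h3 : ∀ x ∈ P, x ^ s ∈ Z) (hR : IsPGroup t R) (hRP : R ≤ N[P])
    (hRZ : R ≤ C[Z]) (hT : IsCyclic T) (hσ : σ ∈ T) (hσ2 : orderOf σ = 2)
    (hB : ∀ a ∈ T, a ≠ 1 → zpowers σ ≤ zpowers a) (hTP : T ≤ N[P]) (hTR : T ≤ N[R])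
    (hTZ : T ≤ C[Z]) (cP : (Nat.card T).Coprime (Nat.card P))
    (cR : (Nat.card T).Coprime (Nat.card R)) (hcE : Nat.card ↥⁅P, zpowers σ⁆ = s ^ (2 * 1 + 1))
    (hcT : 2 < Nat.card T) (hTC : T ≤ C[P ⊓ C[zpowers σ]]) : ⁅R, zpowers σ⁆ ≤ C[P] := by
  set J := R ⊓ C[P]
  have hJR : J ⊴ R := inf_centralizer_normalIn hRP
  have hTJ : T ≤ N[J] := le_normalizer_inf hTR (le_normalizer_centralizer hTP)
  have hPJ : P ≤ N[J] := le_normalizer_of_le_centralizer' inf_le_right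
  have hσJ := hTJ hσ
  have hBT : zpowers σ ≤ T := zpowers_le.mpr hσ
  have cRP := coprime_pp ht hs hts hR hP
  have hPs := sol_p hs hP
  have hZle : Z ≤ P := hZP ▸ inf_le_left
  have hcard : ∀ D, D ≤ P → Nat.card (D /ᵍ J) = Nat.card D := fun D hD =>
    card_quo_of_disjoint (hD.trans hPJ) (inf_eq_bot_of_coprime' (cop_le cRP inf_le_left hD))
  have hcard' : ∀ D, D ≤ T → Nat.card (D /ᵍ J) = Nat.card D := fun D hD =>
    card_quo_of_disjoint (hD.trans hTJ) (inf_eq_bot_of_coprime' (cop_le cR.symm inf_le_left hD))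
  have h := cent_of_involution (P := P /ᵍ J) (Z := Z /ᵍ J) (R := R /ᵍ J) (T := T /ᵍ J)
    (σ := coset J σ) hs ht hts (quo_isPGroup _ hP) (by rw [hcard Z hZle, hZ])
    (by rw [← coprime_norm_quo_cent le_normalizer hPJ (cop_le cRP.symm le_rfl inf_le_left)
      (Or.inl hPs), hZP])
    (by rw [← quo_commutator hPJ hPJ]; exact quo_mono _ h1)
    (by
      intro x' hx'
      obtain ⟨x, hx, hxN, rfl⟩ := mem_quo.mp hx'
      rw [← coset_pow hxN]
      exact coset_mem_quo (pow_mem hxN _) (h3 x hx))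
    (quo_isPGroup _ hR) (quo_norms _ hRP) (quo_cents _ hRZ)
    (by rw [← H63.coprime_quo_cent hJR.le hPJ (cop_le cRP.symm le_rfl inf_le_left) (Or.inl hPs),
      quo_self])
    (quo_isCyclic _ hT) (coset_mem_quo hσJ hσ)
    (by rw [← Nat.card_zpowers, ← quo_zpowers hσJ, hcard' _ hBT, Nat.card_zpowers, hσ2])
    (by
      intro a' ha' ha1
      obtain ⟨a, ha, haN, rfl⟩ := mem_quo.mp ha'
      rw [← quo_zpowers haN, ← quo_zpowers hσJ]
      exact quo_mono _ (hB a ha fun hh => ha1 (by rw [hh, coset_one])))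
    (quo_norms _ hTP) (quo_norms _ hTR) (quo_cents _ hTZ) (coprime_quo _ cP) (coprime_quo _ cR)
    (by rw [← quo_zpowers hσJ, ← quo_commutator hPJ (hBT.trans hTJ),
      hcard _ (commutator_le_of_norm_left (hBT.trans hTP)), hcE])
    (by rwa [hcard' _ le_rfl])
    (by
      rw [← quo_zpowers hσJ, ← coprime_norm_quo_cent_of_coprime (hBT.trans hTP) (hBT.trans hTJ)
        (cop_le cP hBT le_rfl) (Or.inr hPs)]
      exact quo_cents _ hTC)
  rw [← quo_zpowers hσJ, ← quo_commutator hJR.norm (hBT.trans hTJ), quo_eq_bot_iff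
    ((commutator_le_of_norm_left (hBT.trans hTR)).trans hJR.norm)] at h
  exact h.trans inf_le_right

theorem Core.two_false {n t s r : ℕ} {σ : X} (hσ : σ ^ 2 ^ (n + 1) = 1) {R P V : Subgroup X}
    (h : Core t s r (zpowers σ) R P V) (hRB : ⁅R, zpowers (σ ^ 2 ^ n)⁆ = R) : False := by
  have := Fact.mk Nat.prime_two
  set A := zpowers σ with hA
  set B := zpowers (σ ^ 2 ^ n) with hB
  have hBA : B ≤ A := zpowers_le.mpr (pow_mem (mem_zpowers σ) _)
  have hBP : ¬ B ≤ C[P] := fun hh => h.nt (commutator_eq_bot_of_cent'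
    (le_cent_of_commutator_eq hRB h.RP hh))
  have hB1 : B ≠ ⊥ := fun hh => hBP (hh ▸ bot_le)
  have hmB : ∀ a ∈ A, a ≠ 1 → B ≤ zpowers a := fun a ha ha1 =>
    zpowers_le.mpr (H4.HH.pow_mem_zpowers_of_ne_one hσ ha ha1)
  have hmB' : ∀ T, T ≤ A → T ≠ ⊥ → B ≤ T := fun T hT h1 => by
    obtain ⟨a, ha, ha1⟩ := exists_ne_one_of_ne_bot h1
    exact (hmB a (hT ha) ha1).trans (zpowers_le.mpr ha)
  have ho : orderOf (σ ^ 2 ^ n) = 2 := orderOf_eq_prime (by rw [← pow_mul, ← pow_succ, hσ])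
    (fun hh => hB1 (zpowers_eq_bot.mpr hh))
  have hwT : ∀ {Z Y T W N}, Weight s V A P Z Y T W N → B ≤ T := fun hw =>
    hmB' _ hw.TA fun hh => hw.W_ne (by
      have := hw.fpf
      rwa [hh, centralizer_bot, inf_top_eq] at this)
  obtain ⟨hPR, hCR, hZP, hZR, hpow, hZe, -⟩ := h.struct
  by_cases hab : ⁅P, P⁆ = ⊥
  · have hel : IsElementaryAbelian s P :=
      ⟨derived_eq_bot_iff.mp hab, fun x hx => by simpa [hab] using hpow x hx⟩
    refine hBP (cent_symm (le_cent_of_commutator_eq_bot (le_bot_iff.mp ?_)))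
    rw [← h.faith]
    refine le_inf (commutator_le_of_norm_left (hBA.trans h.AP)) (cent_symm
      (coprime_abelian_gen_cent hel.1 h.PV h.cVP.symm fun Y hY hcyc => ?_))
    by_cases hW : V ⊓ C[Y] = ⊥
    · rw [hW]; exact bot_le
    have h1 := card_le_of_abelem_of_isCyclic h.hs (quo_isElementaryAbelian Y hel).2 hcyc
    have h2 := card_quo_mul (normalIn_of_isMulCommutative hel.1 hY)
    rcases (Nat.dvd_prime h.hs).mp h1 with h3 | h3
    · rw [h3, one_mul] at h2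
      exact absurd (eq_of_le_of_card_ge hY h2.ge ▸ h.centP) hW
    rw [h3] at h2
    have hw := weight_of h.hs h.el.1 hel (le_inf le_rfl (elemAb_le_centralizer hel)) h.AV h.PV h.AP
      h.AP h.cV h.cVP h.cP h.centP h.fV h.fP hY h2 hW
    exact inf_le_right.trans (centralizer_anti ((commutator_mono le_rfl (hwT hw)).trans hw.ZT))
  set Z := ⁅P, P⁆ with hZ
  have hZle : Z ≤ P := commutator_le_of_le le_rfl le_rfl
  have hZn : P ≤ N[Z] := le_normalizer_commutator le_normalizer le_normalizer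
  have hAZ : A ≤ N[Z] := le_normalizer_commutator h.AP h.AP
  have hRZ : R ≤ N[Z] := le_normalizer_commutator h.RP h.RP
  have hVZ := h.cent_eq_bot hZle hab hZn hRZ hAZ
  obtain ⟨Y, T, W, N, hw⟩ := exists_weight h.hs h.el.1 h.min.ne_bot hZe (le_inf hZle hZP) h.AV h.PV
    h.AP hAZ h.cV h.cVP h.cP hVZ h.fV (fpf_mono h.fP hZle)
  have hBT := hwT hw
  have hWV : W ≤ V := hw.hW ▸ inf_le_left
  have hPN := hw.NP.norm
  have hRW : R ≤ N[W] := hw.hW ▸ le_normalizer_inf h.RV (le_normalizer_centralizer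
    (le_normalizer_of_le_centralizer' (hw.le.trans hZR)))
  have hRN : R ≤ N[N] := hw.hN ▸ le_normalizer_inf h.RP (le_normalizer_centralizer hRW)
  have hBN := hBT.trans hw.TN
  have hRB' : ⁅R /ᵍ N, B /ᵍ N⁆ = R /ᵍ N := by rw [← quo_commutator hRN hBN, hRB]
  have hPR' : ⁅P /ᵍ N, R /ᵍ N⁆ = P /ᵍ N := by rw [← quo_commutator hPN hRN, hPR]
  have hRP' : ¬ R /ᵍ N ≤ C[P /ᵍ N] := fun hh => hw.nle (hZle.trans ((quo_eq_bot_iff hPN).mp (by
    rw [← hPR']; exact commutator_eq_bot_of_cent' hh)))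
  have hTc : IsCyclic T := isCyclic_of_le hw.TA
  have g1 : Z /ᵍ N ≤ Z[P /ᵍ N] := le_inf (quo_mono _ hZle) (quo_cents _ hZP)
  have g2 : ⁅P /ᵍ N, P /ᵍ N⁆ ≤ Z /ᵍ N := by rw [← quo_commutator hPN hPN]
  have g3 : ∀ x ∈ P /ᵍ N, x ^ s ∈ Z /ᵍ N := by
    intro x' hx'
    obtain ⟨x, hx, hxN, rfl⟩ := mem_quo.mp hx'
    rw [← coset_pow hxN]
    exact coset_mem_quo (pow_mem hxN _) (hpow x hx)
  have g4 : ∀ a ∈ T /ᵍ N, a ≠ 1 → B /ᵍ N ≤ zpowers a := by
    intro a' ha' ha1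
    obtain ⟨a, ha, haN, rfl⟩ := mem_quo.mp ha'
    rw [← quo_zpowers haN]
    exact quo_mono _ (hmB a (hw.TA ha) fun hh => ha1 (by rw [hh, coset_one]))
  have g5 : T /ᵍ N ≤ N[P /ᵍ N] := quo_norms _ (hw.TA.trans h.AP)
  have g6 := coprime_quo N (cop_le h.cP hw.TA le_rfl)
  have g7 := quo_isMulCommutative N (isMulCommutative_of_le h.el.1 hWV)
  have g8 := coprime_quo N (cop_le h.cVP hWV le_rfl)
  have g9 := coprime_quo N (cop_le h.cV.symm hWV hw.TA)
  have g10 := hw.fpf_quo (sol_p h.hr h.pV) h.cV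
  obtain ⟨hBZ, hE, hZE, hCE, k, hk, hc1, hc2⟩ := extraspecial_of_faithful h.hs
    (quo_isPGroup _ h.pP) (hw.card_quo hZle) g1 g2 g3 (quo_isCyclic _ hTc) (quo_mono _ hBT) g4
    (fun hh => hRP' (le_cent_of_commutator_eq hRB' (quo_norms _ h.RP) hh)) g5 hw.cent_quo g6 g7
    (quo_norms _ hw.PW) (quo_norms _ hw.TW) g8 g9 (hw.faithful (sol_p h.hs h.pP) h.cVP) g10
  have hRZ' : R /ᵍ N ≤ C[Z[P /ᵍ N]] := le_cent_of_commutator_eq hRB'
    ((quo_norms _ h.RP).trans (normalizer_le_normalizer_center _)) hBZ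
  obtain ⟨-, hZP', -⟩ := extraspecial_commutator h.hs (quo_isPGroup _ h.pP) (hw.card_quo hZle) g1 g2
    g3 (quo_norms _ h.RP) (coprime_quo _ h.cRP) hRZ' hRP'
  rw [hPR'] at hZP'
  have hA2 : IsPGroup 2 A := H4.HH.isPGroup_zpowers_of_pow_eq_one hσ
  have hT2 : IsPGroup 2 (T /ᵍ N) := quo_isPGroup _ (hA2.to_le hw.TA)
  have hs2 : s ≠ 2 := by
    intro hh
    have h1 := coprime_prime_of_ne_bot h.hs h.pP h.P_ne (cop_le h.cP hBA le_rfl)
    rw [hB, Nat.card_zpowers, ho, hh] at h1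
    exact absurd h1 (by norm_num)
  obtain ⟨m, hm⟩ := hT2.exists_card_eq
  obtain rfl := eq_one_of_pow_add_one h.hs.two_le (h.hs.odd_of_ne_two hs2) hk (hm ▸ hc2)
  have hTC := cent_of_exceptional h.hs Nat.prime_two (quo_isPGroup _ h.pP) (hw.card_quo hZle) hZP' g2
    g3 (quo_isCyclic _ hTc) hT2 (quo_mono _ hBT) g4 g5 hw.cent_quo g6 g7 (quo_norms _ hw.PW)
    (quo_norms _ hw.TW) g8 g9
    (by
      rw [← coprime_norm_quo_cent_of_coprime (hZle.trans hw.PW) (hZle.trans hPN)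
        (cop_le h.cVP.symm hZle hWV) (Or.inl (isSolvable_of_comm' hZe.1)), fpf_mono hVZ hWV, bot_quo])
    g10
    (fun hh => hw.W_ne (by
      rw [eq_bot_iff, ← inf_eq_bot_of_coprime' (cop_le h.cVP hWV hw.NP.le)]
      exact le_inf le_rfl ((quo_eq_bot_iff hw.WN).mp hh)))
    hE hZE hCE hc1 hc2
  have hσN : σ ^ 2 ^ n ∈ N[N] := zpowers_le.mp hBN
  have hBq : B /ᵍ N = zpowers (coset N (σ ^ 2 ^ n)) := quo_zpowers hσN
  rw [hBq] at hRB' g4 hc1 hTC
  refine hRP' (hRB' ▸ cent_of_involution' h.hs h.ht h.ts (quo_isPGroup _ h.pP) (hw.card_quo hZle)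
    hZP' g2 g3 (quo_isPGroup _ h.pR) (quo_norms _ h.RP) (hZP' ▸ hRZ') (quo_isCyclic _ hTc)
    (coset_mem_quo hσN (zpowers_le.mp hBT)) ?_ g4 g5 (quo_norms _ (hw.TA.trans h.AR)) hw.cent_quo g6
    (coprime_quo _ (cop_le h.cR hw.TA le_rfl)) hc1 ?_ hTC)
  · rw [← Nat.card_zpowers, ← hBq, hw.card_T h.cP hBT, Nat.card_zpowers, ho]
  · have := h.hs.two_le
    rw [hc2, pow_one]
    omega

/-- A criterion for `[K, B] ≤ F₂(K)`. -/
theorem cent_quo_fitting_two {A B K : Subgroup X} (hB : B ⊴ A) (hAK : A ≤ N[K])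
    (hc : (Nat.card A).Coprime (Nat.card K)) (hs : Group.IsSolvable K) (hf : K ⊓ C[A] = ⊥)
    (h : ∀ (t s r : ℕ) (R P V : Subgroup X), ⁅R, B⁆ = R → T3 t s r A R P V → ⁅P, R⁆ ≤ C[V]) :
    B /ᵍ fittingOf K /ᵍ fittingOf (K /ᵍ fittingOf K) ≤
      C[K /ᵍ fittingOf K /ᵍ fittingOf (K /ᵍ fittingOf K)] := by
  set F := fittingOf K with hF
  have hFK : F ⊴ K := fittingOf_normalIn K
  have hAF : A ≤ N[F] := le_normalizer_fittingOf hAK
  have hAK' : A /ᵍ F ≤ N[K /ᵍ F] := quo_norms _ hAK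
  have hc' := coprime_quo F hc
  have hs' := quo_isSolvable F hs
  set F' := fittingOf (K /ᵍ F) with hF'
  have hFK' : F' ⊴ K /ᵍ F := fittingOf_normalIn _
  have hAF' : A /ᵍ F ≤ N[F'] := le_normalizer_fittingOf hAK'
  have hB' : B /ᵍ F ⊴ A /ᵍ F := quo_normal _ hB
  refine coprime_cent_of_cent_Fitting (quo_norms _ (hB'.le.trans hAK'))
    (coprime_quo _ (cop_le hc' hB'.le le_rfl)) (quo_isSolvable _ hs') (cent_symm ?_)
  refine fittingOf_le_of_forall fun t ht _ => ?_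
  obtain ⟨S, -, hS, hSK, hAS, hSq, -⟩ := exists_lift_pgroup hFK'.norm hAF' hAK' hc' hs' ht
    (isPGroup_pCoreOf ht (K /ᵍ F /ᵍ F')) (piCoreOf_le _ _)
    (le_normalizer_piCoreOf (quo_norms _ hAK'))
  rw [← hSq]
  refine le_cent_of_commutator_eq_bot ?_
  rw [← quo_commutator (hSK.trans hFK'.norm) (hB'.le.trans hAF')]
  by_contra hne
  have hR'S : ⁅S, B /ᵍ F⁆ ≤ S := commutator_le_of_norm_left (hB'.le.trans hAS)
  have hAR' : A /ᵍ F ≤ N[⁅S, B /ᵍ F⁆] := le_normalizer_commutator hAS hB'.norm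
  have hR'B := coprime_commGid (hB'.le.trans hAS) (cop_le hc' hB'.le hSK) (Or.inr (sol_p ht hS))
  obtain ⟨s, hs1, hst, hne1⟩ := exists_commutator_pCore_ne_bot ht (hS.to_le hR'S) (hR'S.trans hSK)
    ((quo_mono _ hR'S).trans (hSq ▸ pCoreOf_le_fittingOf ht _)) hne
  have hR'p := hS.to_le hR'S
  have hR'K := hR'S.trans hSK
  generalize ⁅S, B /ᵍ F⁆ = R' at *
  have hRO : R' ≤ N[O[{s}](K /ᵍ F)] := hR'K.trans (piCoreOf_normalIn _ _).norm
  have hle : ⁅O[{s}](K /ᵍ F), R'⁆ ≤ O[{s}](K /ᵍ F) := commutator_le_of_norm_left hRO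
  have hO := isPGroup_pCoreOf hs1 (K /ᵍ F)
  have hgid := coprime_commGid hRO (coprime_pp ht hs1 hst.symm hR'p hO) (Or.inr (sol_p hs1 hO))
  have hT' : Tower [(s, ⁅O[{s}](K /ᵍ F), R'⁆), (t, R')] := .cons _ _ _ _ _ (.single _ _ ht hR'p) hs1
    hst (hO.to_le hle) (by
      intro x hx
      rw [List.mem_singleton] at hx
      subst hx
      exact le_norm_commutator_right _ _) hgid
  obtain ⟨L, hT, hmap, hL⟩ := hT'.lift hAF K hFK.norm hAK hc hs (by
    intro x hx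
    simp only [List.mem_cons, List.not_mem_nil, or_false] at hx
    rcases hx with rfl | rfl
    · exact ⟨hle.trans (piCoreOf_le _ _),
        le_normalizer_commutator (le_normalizer_piCoreOf hAK') hAR'⟩
    · exact ⟨hR'K, hAR'⟩)
  match L, hmap with
  | [_], hmap => simp at hmap
  | _ :: _ :: _ :: _, hmap => simp at hmap
  | [(s₁, P), (t₁, R)], hmap =>
    simp only [List.map_cons, List.map_nil, List.cons.injEq, Prod.mk.injEq, and_true] at hmap
    obtain ⟨⟨rfl, hP⟩, rfl, hR⟩ := hmap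
    cases hT with
    | cons _ _ _ _ _ hT₂ _ _ hPp hn _ =>
      obtain ⟨hPK, hAP⟩ := hL (s₁, P) (by simp)
      obtain ⟨hRK, hAR⟩ := hL (t₁, R) (by simp)
      have hRP : R ≤ N[P] := hn (t₁, R) (by simp)
      have hRp := hT₂.prime.2
      have h1 : ⁅R, B⁆ ≤ R := commutator_le_of_norm_left (hB.le.trans hAR)
      have h2 : A ≤ N[⁅R, B⁆] := le_normalizer_commutator hAR hB.norm
      have h3 := coprime_commGid (hB.le.trans hAR) (cop_le hc hB.le hRK) (Or.inr (sol_p ht hRp))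
      have h4 : ⁅R, B⁆ /ᵍ F = R' := by
        rw [quo_commutator (hRK.trans hFK.norm) (hB.le.trans hAF), hR, hR'B]
      have h5 : ⁅P, ⁅R, B⁆⁆ ≤ P := commutator_le_of_norm_left (h1.trans hRP)
      have h6 : ⁅P, ⁅R, B⁆⁆ /ᵍ F = ⁅O[{s₁}](K /ᵍ F), R'⁆ := by
        rw [quo_commutator (hPK.trans hFK.norm) ((h1.trans hRK).trans hFK.norm), hP, h4, hgid]
      have h7 := coprime_commGid (h1.trans hRP) (coprime_pp ht hs1 hst.symm (hRp.to_le h1) hPp)
        (Or.inr (sol_p hs1 hPp))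
      have h8 : A ≤ N[⁅P, ⁅R, B⁆⁆] := le_normalizer_commutator hAP h2
      obtain ⟨r, hr, hrs, hne2⟩ := exists_commutator_pCore_ne_bot hs1 (hPp.to_le h5) (h5.trans hPK)
        (h6 ▸ hle.trans (pCoreOf_le_fittingOf hs1 _)) (h6 ▸ hne1)
      have hKO : K ≤ N[O[{r}](K)] := (piCoreOf_normalIn _ _).norm
      have h9 := h t₁ s₁ r ⁅R, B⁆ ⁅P, ⁅R, B⁆⁆ O[{r}](K) h3 ⟨⟨hs1, hr, hrs.symm, hPp.to_le h5,
        isPGroup_pCoreOf hr K, (h5.trans hPK).trans hKO, le_norm_commutator_right _ _,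
        (h1.trans hRK).trans hKO, h8, le_normalizer_piCoreOf hAK, cop_le hc le_rfl (h5.trans hPK),
        cop_le hc le_rfl (piCoreOf_le _ _), fpf_mono hf (h5.trans hPK),
        fpf_mono hf (piCoreOf_le _ _)⟩, ht, hst.symm, hRp.to_le h1, h2,
        cop_le hc le_rfl (h1.trans hRK), fpf_mono hf (h1.trans hRK)⟩
      rw [h7] at h9
      exact hne2 (commutator_eq_bot_of_cent' h9)

end Cfsg.Agent.H88
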