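import Mathlib
import Cfsg.Agent.H45.OnDefs

/-!
# One component of the class at each point
-/

set_option autoImplicit false

namespace Cfsg.Agent.H88.OnK1

open Cfsg.Agent.H45.On

universe u v

theorem k1 (hLk : LkStmt.{u, v}) (hLs : LsStmt.{u, v}) (hDg : DgStmt.{u, v})
    (hIa : IaStmt.{u, v}) (hIb : IbStmt.{u, v}) (hIi : IiStmt.{u, v}) (h6 : B6Stmt.{u, v})
    (h26 : B26Stmt.{u, v}) (hLsf : LsfStmt.{v}) (hNum : NumStmt) : K1Stmt.{u, v} := by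
  intro G Ω _ _ _ _ S L z
  have K : L.LK := hLk L
  have hS : L.LS := hLs L K
  have hD : L.DG := hDg L K
  obtain ⟨x, y, hxy⟩ := S.nt
  obtain ⟨U, hU, -⟩ := K.join hxy
  have ex : ∀ {U}, L.Ln U → ∃ g ∈ U, ¬ ∀ v : Ω, g • v = v := fun {U} hU => by
    by_contra h
    push Not at h
    exact K.ne_bot hU ((Subgroup.eq_bot_iff_forall U).2 fun g hg => S.faith g (h g hg))
  obtain ⟨g, hg, hg1⟩ := ex hU
  have hle : ∀ z w z' w' : Ω, z ≠ w → z' ≠ w' → (L.Bl z w).ncard ≤ (L.Bl z' w').ncard := by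
    intro z w z' w' h h'
    obtain ⟨a, rfl, rfl⟩ := S.tr2 z w z' w' h h'
    exact Set.ncard_le_ncard_of_injOn (fun v => a • v) (fun v hv => K.bl a hv)
      (fun _ _ _ _ e => MulAction.injective a e) (Set.toFinite _)
  have hγ : ∀ z w : Ω, z ≠ w → (L.Bl z w).ncard = (L.Bl x y).ncard := fun z w h =>
    le_antisymm (hle _ _ _ _ h hxy) (hle _ _ _ _ hxy h)
  obtain ⟨r, h1, h2, h3⟩ := hLsf L.Bl (L.Bl x y).ncard
    (fun z w => ⟨fun _ _ h _ => h, fun _ _ _ h => h⟩) hS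
    (fun z w h => ⟨hγ z w h, fun e => by
      obtain ⟨U', hU', a, b⟩ := K.join h
      obtain ⟨c, hc, hc1⟩ := ex hU'
      exact hc1 fun v => K.fx ((e ▸ Set.mem_univ v : v ∈ L.Bl z w) U' hU' a b) c hc⟩)
    (MulAction.toPerm g) (fun e => hg1 fun v => congrArg (fun p : Equiv.Perm Ω => p v) e)
    (fun z w v hv => K.bl g hv)
  obtain ⟨b1, b2⟩ := h6 L K
  rw [K.kk_eq z x]
  refine hNum _ r _ (L.be U) _ (L.mu x y) _ h1 h2 h3 (Set.ncard_le_card _) (b1 U hU)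
    (K.mu_pos hxy) (K.mu_le x y) (b2 x y hxy)
    (fun a b => h26 L K hS hD (fun z w h => hγ z w h ▸ b2 x y hxy b) U x y hU hxy a)
    (fun a => ?_) (hIi L K hS U x y hU hxy g hg)
  obtain ⟨U', hU', h4⟩ := hIa L K U x y hU hxy a
  have h5 := hIb L K hD U U' x hU hU'
  calc 5 * L.be U * (L.mu x y - 1) ≤ 5 * (L.kk x * (L.Ap U U').ncard) := by
        rw [mul_assoc]; exact Nat.mul_le_mul_left _ h4
    _ = L.kk x * (5 * (L.Ap U U').ncard) := by ring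
    _ ≤ _ := Nat.mul_le_mul_left _ (by omega)

end Cfsg.Agent.H88.OnK1
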