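import Cfsg.Agent.H35.RfQ
import Cfsg.Agent.H42.Enum

/-! Project RF: uniqueness of the invariant complement in the code case. -/

set_option autoImplicit false

namespace Cfsg.Agent.H88.RfQd3

open Cfsg Subgroup Cfsg.Agent.H42 Cfsg.Agent.H18.Rf Cfsg.Agent.H35.RF
open Cfsg.Agent.H48 (IsWord)
open scoped Pointwise symmDiff

universe u

theorem six {G : Type u} [Group G] {R W : Subgroup G} (hn : R ≤ NN W) (hs : Sq R W)
    (a b c d e f : R) (h1 : (a : G) * b * (c * d) * (e * f) ∈ W) (h2 : (a : G) * c * e ∈ W) :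
    (b : G) * d * f ∈ W := by
  have := normal_subgroupOf_of_le_normalizer hn
  let μ := QuotientGroup.mk' (W.subgroupOf R)
  have k : ∀ x : R, μ x = 1 ↔ (x : G) ∈ W := fun x => QuotientGroup.eq_one_iff x
  have cm : ∀ x y : R, μ x * μ y = μ y * μ x := fun x y =>
    H18.MaxOff.comm_of_sq (A := ⊤) (fun a _ => by
      obtain ⟨a, rfl⟩ := QuotientGroup.mk'_surjective _ a
      rw [← map_mul]
      exact (k _).2 (hs a a.2)) (mem_top _) (mem_top _)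
  have h3 := (k (a * b * (c * d) * (e * f))).2 h1
  have h4 := (k (a * c * e)).2 h2
  refine (k (b * d * f)).1 ?_
  simp only [map_mul] at h3 h4 ⊢
  calc _ = μ a * μ c * μ e * (μ b * μ d * μ f) := by rw [h4, one_mul]
    _ = μ a * μ c * (μ e * μ b) * μ d * μ f := by group
    _ = μ a * (μ c * μ b) * (μ e * μ d) * μ f := by rw [cm e b]; group
    _ = _ := by rw [cm c b, cm e d, ← h3]; group

def g1 : ℕ := 975728708050008715525885598301784096
def g2 : ℕ := 972930957489177573782895074600848448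

theorem good {g : ℕ} (h : g = g1 ∨ g = g2) : inM g = true ∧ toM g ∈ GO ⊓ G22 ∧
    ∀ e ∈ fixS oct0, e * (toM g * e * (toM g)⁻¹) *
      (toM g * (toM g * e * (toM g)⁻¹) * (toM g)⁻¹) = 1 := by
  have : inM g = true ∧ img g oct0 = oct0 ∧ app g 23 = 23 ∧ app g 0 = 0 ∧
      orbAll (actsOf pmul gensE16) pid 20
        (fun y => Nat.beq (pmul (pmul y (pconj g y)) (pconj g (pconj g y))) pid) = true := by
    rcases h with rfl | rfl <;> decide +kernel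
  obtain ⟨h1, h2, h3, h4, h5⟩ := this
  refine ⟨h1, ⟨(toM_mem_stabilizer_toSet h1 oct0_lt).2 h2,
    (toM_mem_stabilizer_pt h1 (by decide)).2 h3, (toM_mem_stabilizer_pt h1 (by decide)).2 h4⟩,
    fun e he => ?_⟩
  obtain ⟨y, hy, rfl, h6⟩ := forall_gen inM_gensE16 h5 (fixS_oct0_eq.1 ▸ he)
  have i1 := inM_pconj h1 hy
  rw [← toM_pconj h1 hy, ← toM_pconj h1 i1, ← toM_pmul hy i1,
    ← toM_pmul (inM_pmul hy i1) (inM_pconj h1 i1), Nat.eq_of_beq_eq_true h6, toM_pid]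

theorem cover : ∀ p ∈ o0, toM g1 • p = p ∨ toM g2 • p = p := fun p hp => by
  have : ∀ i < 24, oct0.testBit i = true → app g1 i = i ∨ app g2 i = i := by decide +kernel
  rw [← pt_idx p, toM_smul_pt (good (Or.inl rfl)).1 (idx_lt p),
    toM_smul_pt (good (Or.inr rfl)).1 (idx_lt p)]
  exact (this _ (idx_lt p) (mem_toSet.1 hp)).imp (congrArg pt) (congrArg pt)

theorem qd3 (hK : KitGStmt.{u}) (hA : VaGStmt.{u}) : Qd3Stmt.{u} := by
  intro G _ _ V ρ ψ st gol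
  obtain ⟨-, kW, -⟩ := hK G V ρ ψ st gol
  obtain ⟨va, -⟩ := hA G V ρ ψ st gol
  suffices key : ∀ Q Q' : Subgroup G, Sq (RG V ρ) (WG ψ) → Q ⊓ V = WG ψ → Q ⊔ V = RG V ρ →
      Q' ⊓ V = WG ψ → Q' ⊔ V = RG V ρ → pre V ρ (GO ⊓ G22) ≤ NN Q ⊓ NN Q' → Q ≤ Q' from
    fun Q Q' hs a b c d e => le_antisymm (key Q Q' hs a b c d e)
      (key Q' Q hs c d a b (inf_comm (NN Q) _ ▸ e))
  intro Q Q' hs a b a' b' hn q hq
  have QR : Q ≤ RG V ρ := b ▸ le_sup_left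
  have QR' : Q' ≤ RG V ρ := b' ▸ le_sup_left
  obtain ⟨r, hr, v, hv, rfl⟩ := H18.MaxOff.mem_sup_prod
    (fun x hx => (va.RM (QR' hx)).1 : Q' ≤ NN V) (b' ▸ QR hq)
  obtain ⟨c, hc, rfl⟩ := gol.sur v hv
  have step : ∀ g, g = g1 ∨ g = g2 → ∀ p ∈ o0, toM g • p = p → (p ∈ c ↔ pt 0 ∈ c) := by
    intro g hg
    obtain ⟨-, h1, h2⟩ := good hg
    obtain ⟨n, e⟩ := st.sur (toM g)
    have h3 := hn (coe_mem_pre.2 (e ▸ h1))
    have cj : ∀ {P : Subgroup G} {x : G}, (n : G) ∈ NN P → x ∈ P → n * x * (n : G)⁻¹ ∈ P :=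
      fun h hx => (mem_normalizer_iff.1 h _).1 hx
    have nm : ∀ P : Subgroup G, P ⊓ V = WG ψ → P ≤ RG V ρ → (n : G) ∈ NN P → ∀ x ∈ P,
        x * (n * x * (n : G)⁻¹) * (n * (n * x * (n : G)⁻¹) * (n : G)⁻¹) ∈ WG ψ := by
      intro P i l h x hx
      obtain ⟨hx', h4⟩ := mem_pre.1 (l hx)
      refine i ▸ ⟨mul_mem (mul_mem hx (cj h hx)) (cj h (cj h hx)), (st.ker
        (⟨x, hx'⟩ * (n * ⟨x, hx'⟩ * n⁻¹) * (n * (n * ⟨x, hx'⟩ * n⁻¹) * n⁻¹))).1 ?_⟩
      simpa only [map_mul, map_inv, e] using h2 _ h4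
    have h4 := six (va.RM.trans va.nW) hs ⟨_, QR' hr⟩ ⟨_, va.VR hv⟩ ⟨_, QR' (cj h3.2 hr)⟩
      ⟨_, va.VR (cj n.2 hv)⟩ ⟨_, QR' (cj h3.2 (cj h3.2 hr))⟩ ⟨_, va.VR (cj n.2 (cj n.2 hv))⟩
      (by simpa only [conj_mul] using nm Q a QR h3.1 _ hq) (nm Q' a' QR' h3.2 r hr)
    have w1 : IsWord (toM g • c) := hc.smul (toM g).2
    have w2 : IsWord (toM g • toM g • c) := w1.smul (toM g).2
    dsimp only at h4
    rw [gol.act n c hc, e, gol.act n _ w1, e, ← gol.add _ _ hc w1, ← gol.add _ _ (hc.symmDiff w1) w2,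
      kW _ ((hc.symmDiff w1).symmDiff w2)] at h4
    have fx : ∀ p, toM g • p = p → (p ∈ (c ∆ (toM g • c)) ∆ (toM g • toM g • c) ↔ p ∈ c) := by
      intro p hp
      have : ∀ s : Finset GolayPt, p ∈ toM g • s ↔ p ∈ s := fun s => by
        rw [← Finset.smul_mem_smul_finset_iff (toM g) (s := s), hp]
      simp only [Finset.mem_symmDiff, this]
      tauto
    have o : pt 0 ∈ o0 := by decide +kernel
    intro p hp h5
    rw [← fx p h5, ← fx _ h1.2.2]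
    exact h4.elim (fun h => iff_of_false (Finset.disjoint_right.1 h hp)
      (Finset.disjoint_right.1 h o)) fun h => iff_of_true (h hp) (h o)
  have all : ∀ p ∈ o0, p ∈ c ↔ pt 0 ∈ c := fun p hp =>
    (cover p hp).elim (step _ (Or.inl rfl) p hp) (step _ (Or.inr rfl) p hp)
  have : ψ c ∈ WG ψ := (kW c hc).2 ((em (pt 0 ∈ c)).symm.imp
    (fun h => Finset.disjoint_right.2 fun p hp h' => h ((all p hp).1 h')) fun h p hp => (all p hp).2 h)
  exact mul_mem hr (a' ▸ this : ψ c ∈ Q' ⊓ V).1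

end Cfsg.Agent.H88.RfQd3
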