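import Cfsg.Agent.H77.SgDefs

/-! Digit expansions modulo `p ^ M - 1`, linearised polynomials, and isolation of monomials. -/

set_option autoImplicit false

namespace Cfsg.Agent.H88.SgP

open Finset Module

section carry

variable {ι : Type*} [Fintype ι] [DecidableEq ι] {p M : ℕ} (e : ι ≃ Fin M)

/-- The value of a digit function. -/
def vl (p : ℕ) (ν : ι → ℕ) : ℕ := ∑ m, ν m * p ^ (e m : ℕ)

omit [DecidableEq ι] in
theorem vl_eq {ν : ι → ℕ} (h : ∀ m, ν m < p) :
    vl e p ν = (finFunctionFinEquiv (fun i : Fin M => (⟨ν (e.symm i), h _⟩ : Fin p)) : ℕ) := by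
  rw [finFunctionFinEquiv_apply, vl]
  exact Fintype.sum_equiv e _ _ fun m => by simp

omit [DecidableEq ι] in
theorem vl_pos (hp : 2 ≤ p) {ν : ι → ℕ} (h0 : ∃ m, ν m ≠ 0) : 0 < vl e p ν := by
  obtain ⟨m, hm⟩ := h0
  refine lt_of_lt_of_le ?_ (single_le_sum (f := fun m => ν m * p ^ (e m : ℕ))
    (fun _ _ => Nat.zero_le _) (mem_univ m))
  exact Nat.mul_pos (Nat.pos_of_ne_zero hm) (Nat.pow_pos (by omega))

omit [DecidableEq ι] in
theorem red_eq (hp : 2 ≤ p) {μ ν : ι → ℕ} (hμ : ∀ m, μ m < p) (hν : ∀ m, ν m < p)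
    (μ0 : ∃ m, μ m ≠ 0) (ν0 : ∃ m, ν m ≠ 0) (h : vl e p ν ≡ vl e p μ [MOD p ^ M - 1]) :
    ν = μ := by
  have a1 := vl_pos e hp μ0
  have a2 := vl_pos e hp ν0
  have b1 : vl e p μ < p ^ M := by rw [vl_eq e hμ]; exact Fin.is_lt _
  have b2 : vl e p ν < p ^ M := by rw [vl_eq e hν]; exact Fin.is_lt _
  have : vl e p ν - 1 = vl e p μ - 1 := by
    refine Nat.ModEq.eq_of_lt_of_lt (m := p ^ M - 1) ?_ (by omega) (by omega)
    refine Nat.ModEq.add_right_cancel' 1 ?_
    rwa [Nat.sub_add_cancel a1, Nat.sub_add_cancel a2]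
  have h2 : vl e p ν = vl e p μ := by omega
  rw [vl_eq e hμ, vl_eq e hν] at h2
  have h3 := finFunctionFinEquiv.injective (Fin.ext h2)
  funext m
  simpa using congrArg (fun g => (g (e m) : ℕ)) h3

omit [Fintype ι] [DecidableEq ι] in
theorem pow_succ_modEq (hp : 2 ≤ p) (a : Fin M) :
    p * p ^ (a : ℕ) ≡ p ^ (((a : ℕ) + 1) % M) [MOD p ^ M - 1] := by
  rw [← pow_succ']
  rcases (Nat.succ_le_of_lt a.2).lt_or_eq with h | h
  · rw [Nat.mod_eq_of_lt h]
  · have h' : (a : ℕ) + 1 = M := h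
    rw [h', Nat.mod_self, pow_zero]
    exact ((Nat.modEq_iff_dvd' (Nat.one_le_pow _ _ (by omega))).2 dvd_rfl).symm

theorem vl_carry (hp : 2 ≤ p) {s : ι → ι} (hs : ∀ m, (e (s m) : ℕ) = (e m + 1) % M)
    {μ ν : ι → ℕ} {m : ι}
    (h : ∀ i, ν i + (if i = s m then 1 else 0) = μ i + if i = m then p else 0) :
    vl e p ν ≡ vl e p μ [MOD p ^ M - 1] ∧ ∑ i, ν i + 1 = ∑ i, μ i + p := by
  constructor
  · have h1 : vl e p ν + p ^ (e (s m) : ℕ) = vl e p μ + p * p ^ (e m : ℕ) := by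
      have := congrArg (vl e p) (funext h)
      simpa [vl, add_mul, sum_add_distrib] using this
    have h2 := pow_succ_modEq hp (e m)
    rw [← hs] at h2
    refine Nat.ModEq.add_right_cancel' (p ^ (e (s m) : ℕ)) ?_
    rw [h1]
    exact h2.add_left _
  · have := congrArg (fun g : ι → ℕ => ∑ i, g i) (funext h)
    simpa [sum_add_distrib] using this

theorem carry (hp : 2 ≤ p) {s : ι → ι} (hs : ∀ m, (e (s m) : ℕ) = (e m + 1) % M)
    {μ : ι → ℕ} (hμ : ∀ m, μ m < p) (μ0 : ∃ m, μ m ≠ 0) (ν : ι → ℕ) (ν0 : ∃ m, ν m ≠ 0)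
    (h : vl e p ν ≡ vl e p μ [MOD p ^ M - 1]) :
    ν = μ ∨ (∑ i, μ i + p ≤ ∑ i, ν i + 1 ∧ (∑ i, ν i + 1 = ∑ i, μ i + p → ∃ m, ∀ i,
      ν i + (if i = s m then 1 else 0) = μ i + if i = m then p else 0)) := by
  induction hn : ∑ i, ν i using Nat.strong_induction_on generalizing ν with
  | _ N ih =>
  by_cases r : ∀ m, ν m < p
  · exact .inl (red_eq e hp hμ r μ0 ν0 h)
  push Not at r
  obtain ⟨m, hm⟩ := r
  right
  let ν' : ι → ℕ := fun i => ν i + (if i = s m then 1 else 0) - if i = m then p else 0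
  have k : ∀ i, ν i + (if i = s m then 1 else 0) = ν' i + if i = m then p else 0 := fun i => by
    simp only [ν']
    split_ifs with h1 h2 h2 <;> (try subst h2) <;> omega
  obtain ⟨k1, k2⟩ := vl_carry e hp hs k
  have n0 : ∃ i, ν' i ≠ 0 := ⟨s m, by
    have := k (s m)
    by_cases h2 : s m = m
    · rw [h2] at this ⊢
      simp only [if_true] at this
      omega
    · simp only [h2, if_true, if_false] at this
      omega⟩
  rcases ih _ (by omega) ν' n0 (k1.symm.trans h) rfl with e1 | ⟨e1, -⟩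
  · subst e1
    exact ⟨by omega, fun _ => ⟨m, k⟩⟩
  · exact ⟨by omega, fun _ => by omega⟩

end carry

/-- Every linear map is a linearised polynomial. -/
theorem exists_lin {F K : Type*} [Field F] [Field K] [Algebra F K] [Finite F] [Finite K]
    (g : K →ₗ[F] K) : ∃ a : Fin (finrank F K) → K, ∀ x, g x = ∑ j, a j * x ^ Nat.card F ^ (j : ℕ) := by
  classical
  let b := Module.finBasis F K
  let d := b.traceDual
  refine ⟨fun j => ∑ i, b i ^ Nat.card F ^ (j : ℕ) * g (d i), fun x => ?_⟩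
  conv_lhs => rw [← d.sum_repr x, map_sum]
  simp only [sum_mul]
  rw [sum_comm]
  refine sum_congr rfl fun i _ => ?_
  rw [map_smul, Algebra.smul_def, Module.Basis.traceDual_repr_apply, Algebra.traceForm_apply,
    FiniteField.algebraMap_trace_eq_sum_pow, sum_range, sum_mul]
  refine sum_congr rfl fun j _ => ?_
  rw [mul_pow]; ring

/-- Independence of the characters `x ↦ x ^ u` of the multiplicative group. -/
theorem isolate {K α : Type*} [Field K] [Finite K] (S : Finset α) (Φ : α → K) (v : α → ℕ)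
    (h : ∀ x : K, x ≠ 0 → ∑ a ∈ S, Φ a * x ^ v a = 0) {a₀ : α} (h0 : a₀ ∈ S)
    (hu : ∀ a ∈ S, a ≠ a₀ → v a ≡ v a₀ [MOD Nat.card K - 1] → Φ a = 0) : Φ a₀ = 0 := by
  classical
  have := Fintype.ofFinite K
  rw [Nat.card_eq_fintype_card] at hu
  set N := Fintype.card K - 1 with hN
  have N0 : 1 ≤ N := by have := Fintype.one_lt_card (α := K); omega
  have key : ∀ a, N ∣ v a + (N - 1) * v a₀ ↔ v a ≡ v a₀ [MOD N] := fun a => by
    have e : v a₀ + (N - 1) * v a₀ = N * v a₀ := by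
      obtain ⟨n, hn⟩ := Nat.exists_eq_add_of_le' N0
      rw [hn, Nat.add_sub_cancel]; ring
    rw [← Nat.modEq_zero_iff_dvd]
    have z : v a₀ + (N - 1) * v a₀ ≡ 0 [MOD N] := by
      rw [e]; exact Nat.modEq_zero_iff_dvd.2 (dvd_mul_right _ _)
    exact ⟨fun h => Nat.ModEq.add_right_cancel' _ (h.trans z.symm),
      fun h => (h.add_right _).trans z⟩
  have s1 : ∑ x : Kˣ, ∑ a ∈ S, Φ a * (x : K) ^ (v a + (N - 1) * v a₀) = 0 :=
    sum_eq_zero fun x _ => by
      simp only [pow_add, ← mul_assoc, ← sum_mul, h x x.ne_zero, zero_mul]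
  rw [sum_comm] at s1
  simp only [← mul_sum, FiniteField.sum_pow_units, ← hN, key] at s1
  rw [sum_eq_single_of_mem a₀ h0 fun a ha ne => by
    split_ifs with c
    · rw [hu a ha ne c, zero_mul]
    · rw [mul_zero], if_pos (Nat.ModEq.refl _)] at s1
  simpa using s1

section core

open MvPolynomial

variable {K : Type*} [Field K] {p n f : ℕ}

/-- A power of a product of linear forms. -/
noncomputable def Lam (a : Fin n → Fin n → K) (c : ℕ) : MvPolynomial (Fin n) K :=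
  (∏ i, ∑ j, C (a i j) * X j) ^ c

/-- The constant exponent vector. -/
noncomputable def cst (n c : ℕ) : Fin n →₀ ℕ := Finsupp.equivFunOnFinite.symm fun _ => c

@[simp] theorem cst_apply (c : ℕ) (j : Fin n) : cst n c j = c := rfl

theorem Lam_deg {a : Fin n → Fin n → K} {c : ℕ} {ν : Fin n →₀ ℕ} (h : coeff ν (Lam a c) ≠ 0) :
    ∑ j, ν j = n * c := by
  have : (Lam a c).IsHomogeneous (n * c) := by
    have := (IsHomogeneous.prod univ (fun i => ∑ j, C (a i j) * X j) (fun _ => 1) fun i _ =>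
      IsHomogeneous.sum univ _ 1 fun j _ => isHomogeneous_C_mul_X (a i j) j).pow c
    simpa [Lam] using this
  by_contra ne
  exact h (this.coeff_eq_zero (by rwa [Finsupp.degree_eq_sum]))

/-- The digit function of a family of exponent vectors. -/
def fl (ν : Fin f → Fin n →₀ ℕ) : Fin n × Fin f → ℕ := fun m => ν m.2 m.1

theorem fl_inj {ν μ : Fin f → Fin n →₀ ℕ} (h : fl ν = fl μ) : ν = μ := by
  funext k; ext j; exact congrFun h (j, k)

theorem sum_fl (ν : Fin f → Fin n →₀ ℕ) : ∑ m, fl ν m = ∑ k, ∑ j, ν k j :=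
  Fintype.sum_prod_type_right _

theorem prod_eval (e : Fin n × Fin f ≃ Fin (n * f)) (T : Finset (Fin n →₀ ℕ))
    (R : Fin f → MvPolynomial (Fin n) K) (hT : ∀ k, (R k).support ⊆ T) (x : K) :
    ∏ k, eval (fun j => x ^ p ^ (e (j, k) : ℕ)) (R k) =
      ∑ ν ∈ Fintype.piFinset (fun _ => T), (∏ k, coeff (ν k) (R k)) * x ^ vl e p (fl ν) := by
  classical
  have : ∀ k, eval (fun j => x ^ p ^ (e (j, k) : ℕ)) (R k) =
      ∑ d ∈ T, coeff d (R k) * ∏ j, (x ^ p ^ (e (j, k) : ℕ)) ^ d j := fun k => by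
    rw [eval_eq']
    exact sum_subset (hT k) fun d _ h => by rw [notMem_support_iff.1 h, zero_mul]
  simp only [this]
  rw [prod_univ_sum]
  refine sum_congr rfl fun ν _ => ?_
  rw [prod_mul_distrib, vl, Fintype.sum_prod_type_right, ← prod_pow_eq_pow_sum]
  congr 1
  refine prod_congr rfl fun k _ => ?_
  rw [← prod_pow_eq_pow_sum]
  exact prod_congr rfl fun j _ => by rw [← pow_mul, mul_comm]; rfl

theorem iso [Finite K] (e : Fin n × Fin f ≃ Fin (n * f)) (hK : Nat.card K = p ^ (n * f))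
    (n0 : 0 < n) (a : Fin f → Fin n → Fin n → K) (E : Finset (Fin f → ℕ)) (b : (Fin f → ℕ) → K)
    (H : ∀ x : K, x ≠ 0 → ∑ c ∈ E, b c *
      (∏ k, (∏ i, ∑ j, a k i j * x ^ p ^ (e (j, k) : ℕ)) ^ c k -
        ∏ k, (∏ j, x ^ p ^ (e (j, k) : ℕ)) ^ c k) = 0)
    {c₀ : Fin f → ℕ} (hc : c₀ ∈ E) (hb : b c₀ ≠ 0) (ν₀ : Fin f → Fin n →₀ ℕ)
    (hd : ∀ k, ∑ j, ν₀ k j = n * c₀ k)
    (hu : ∀ ν : Fin f → Fin n →₀ ℕ, ∀ c ∈ E, (∀ k, ∑ j, ν k j = n * c k) →
      vl e p (fl ν) ≡ vl e p (fl ν₀) [MOD p ^ (n * f) - 1] → ν = ν₀) :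
    ∏ k, coeff (ν₀ k) (Lam (a k) (c₀ k)) = ∏ k, if cst n (c₀ k) = ν₀ k then 1 else 0 := by
  classical
  let D : ℕ → MvPolynomial (Fin n) K := fun c => monomial (cst n c) 1
  let T : Finset (Fin n →₀ ℕ) := univ.image ν₀ ∪ E.biUnion fun c => univ.biUnion fun k =>
    (Lam (a k) (c k)).support ∪ (D (c k)).support
  let Ψ : (Fin f → Fin n →₀ ℕ) → (Fin f → ℕ) → K := fun ν c =>
    ∏ k, coeff (ν k) (Lam (a k) (c k)) - ∏ k, coeff (ν k) (D (c k))
  have dg : ∀ ν c, Ψ ν c ≠ 0 → ∀ k, ∑ j, ν k j = n * c k := fun ν c h k => by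
    by_contra ne
    refine h (sub_eq_zero.2 ?_)
    rw [prod_eq_zero (mem_univ k) (by_contra fun h => ne (Lam_deg h)),
      prod_eq_zero (mem_univ k)]
    rw [coeff_monomial, if_neg]
    intro h
    exact ne (by simp [← h])
  have := isolate (Fintype.piFinset fun _ : Fin f => T) (fun ν => ∑ c ∈ E, b c * Ψ ν c)
    (fun ν => vl e p (fl ν)) (a₀ := ν₀) (fun x hx => ?_) (by simp [T]) fun ν _ ne h => ?_
  · rw [sum_eq_single_of_mem c₀ hc fun c _ ne => ?_] at this
    · have := sub_eq_zero.1 ((mul_eq_zero.1 this).resolve_left hb)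
      simpa only [D, coeff_monomial] using this
    · refine mul_eq_zero_of_right _ (by_contra fun h => ne (funext fun k => ?_))
      exact Nat.eq_of_mul_eq_mul_left n0 ((dg _ _ h k).symm.trans (hd k))
  · rw [← H x hx]
    simp only [sum_mul]
    rw [sum_comm]
    refine sum_congr rfl fun c hc => ?_
    simp only [mul_assoc, ← mul_sum, Ψ, sub_mul, sum_sub_distrib]
    rw [← prod_eval e T (fun k => Lam (a k) (c k)) fun k d hd => ?_,
      ← prod_eval e T (fun k => D (c k)) fun k d hd => ?_]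
    · congr 2
      · exact prod_congr rfl fun k _ => by simp [Lam]
      · exact prod_congr rfl fun k _ => by
          simp [D, eval_monomial, Finsupp.prod_fintype, prod_pow]
    · exact mem_union_right _ (mem_biUnion.2 ⟨c, hc, mem_biUnion.2 ⟨k, mem_univ _,
        mem_union_right _ hd⟩⟩)
    · exact mem_union_right _ (mem_biUnion.2 ⟨c, hc, mem_biUnion.2 ⟨k, mem_univ _,
        mem_union_left _ hd⟩⟩)
  · rw [hK] at h
    exact sum_eq_zero fun c hc => mul_eq_zero_of_right _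
      (by_contra fun h' => ne (hu ν c hc (dg _ _ h') h))

end core

end Cfsg.Agent.H88.SgP
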