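import Cfsg.Agent.H92.W3C

/-! Width three, `Q ∩ Q_t = ⟨z, t⟩`: the plus type is impossible. -/

set_option autoImplicit false
set_option linter.unusedSectionVars false

namespace Cfsg.Agent.H88.W3

open Subgroup Cfsg.Agent.H49 Cfsg.Agent.H69.XV Cfsg.Agent.H69.XV.VD Cfsg.Agent.H92.Lx
  Cfsg.Agent.H92.W3

universe u

variable {G : Type u} [Group G] [Finite G] {V : Type*} [AddCommGroup V] [Module (ZMod 2) V]
  {z t : G}

section Lin

variable {Q : Subgroup G} (d : VD Q z V)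

theorem l1 (a b : V) : a ∈ Submodule.span (ZMod 2) {a, b} := Submodule.subset_span (by simp)

theorem l2 (a b : V) : b ∈ Submodule.span (ZMod 2) {a, b} := Submodule.subset_span (by simp)

theorem B_span {a b u v : V} (hu : u ∈ Submodule.span (ZMod 2) {a, b}) (h1 : d.B v a = 0)
    (h2 : d.B v b = 0) : d.B v u = 0 := by
  rcases mem_span_two.1 hu with rfl | rfl | rfl | rfl <;> simp [h1, h2]

theorem q_span {a b u : V} (hu : u ∈ Submodule.span (ZMod 2) {a, b}) (h1 : d.q a = 0)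
    (h2 : d.q b = 0) (h3 : d.B a b = 0) : d.q u = 0 := by
  rcases mem_span_two.1 hu with rfl | rfl | rfl | rfl <;> simp [h1, h2, h3, d.q_zero, d.q_add]

theorem B_gen {a b k u v : V} (hk : k ∈ Submodule.span (ZMod 2) {a, b})
    (hu : u ∈ Submodule.span (ZMod 2) {a, b}) (k0 : k ≠ 0) (u0 : u ≠ 0) (uk : u ≠ k)
    (h1 : d.B v k = 0) (h2 : d.B v u = 0) : d.B v a = 0 ∧ d.B v b = 0 := by
  rcases mem_span_two.1 hk with e | e | e | e <;> rcases mem_span_two.1 hu with e' | e' | e' | e' <;>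
    first
    | exact absurd e k0
    | exact absurd e' u0
    | exact absurd (e'.trans e.symm) uk
    | (rw [e] at h1; rw [e'] at h2; simp_all)

theorem sg_span {s w : V} {a : G} (h : Sg d s w a) (v : V) :
    d.ρ a v + v ∈ Submodule.span (ZMod 2) {s, w} := by
  rw [h.com]
  exact add_mem (Submodule.smul_mem _ _ (l2 _ _)) (Submodule.smul_mem _ _ (l1 _ _))

theorem sg_one {s w v : V} {a : G} (h : Sg d s w a) (hv : d.B v s ≠ 0) :
    w = d.ρ a v + v ∨ w = d.ρ a v + v + s := by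
  rw [h.com, z2_ne hv, one_smul]
  rcases z2 (d.B v w + d.q w * 1) with e | e <;> rw [e]
  · simp
  · right; ch2

theorem sg_zero {s w v : V} {a : G} (h : Sg d s w a) (hv : d.B v s = 0) :
    d.ρ a v + v = 0 ∨ d.ρ a v + v = s := by
  rw [h.com, hv]
  rcases z2 (d.B v w + d.q w * 0) with e | e <;> rw [e] <;> simp

theorem rank_one (h64 : Nat.card V = 64) {c : G} (hc : c * z = z * c) (h2 : c * c ∈ Q)
    {v₁ v₂ k₁ k₂ : V} (e₁ : d.ρ c v₁ + v₁ = k₁) (e₂ : d.ρ c v₂ + v₂ = k₂) (n₁ : k₁ ≠ 0)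
    (n₂ : k₂ ≠ 0) (n : k₂ ≠ k₁) (b₁ : d.B v₁ k₁ = 0) (b₂ : d.B v₁ k₂ = 0) (b₃ : d.B v₂ k₁ = 0)
    (b₄ : d.B v₂ k₂ = 0) : False := by
  obtain ⟨v, h3, h4⟩ := exists_sep_one (d := d) n₂ n
  have h5 : d.B (d.ρ c v + v) v₂ ≠ 0 := by rwa [B_com_sq hc h2, e₂]
  let W := Submodule.span (ZMod 2) {k₁, k₂, d.ρ c v + v}
  have hW : W ≤ d.comS c := Submodule.span_le.2 (by
    rintro _ (rfl | rfl | rfl)
    exacts [e₁ ▸ d.com_mem c _, e₂ ▸ d.com_mem c _, d.com_mem c _])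
  have hL := lag_of_three d h64 (W := W)
    (fun u hu w hw => d.B_com_fix hc (hW hw) (d.comS_le_fixS hc h2 (hW hu)))
    (Submodule.subset_span (Or.inl rfl))
    (Submodule.subset_span (Or.inr (Or.inl rfl))) (Submodule.subset_span (Or.inr (Or.inr rfl)))
    n₁ n₂ n fun e => h5 (by rw [d.B_symm]; exact B_span d (mem_span_two.2 e) b₃ b₄)
  have h6 : v₁ ∈ W := by
    rw [← hL]
    have : W ≤ LinearMap.ker (d.B v₁) := Submodule.span_le.2 (by
      rintro _ (rfl | rfl | rfl)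
      exacts [b₁, b₂, by
        change d.B v₁ _ = 0
        rw [d.B_symm, B_com_sq hc h2, e₁, h3]])
    exact fun w hw => by rw [d.B_symm]; exact this hw
  exact n₁ (by rw [← e₁, d.mem_fixS.1 (d.comS_le_fixS hc h2 (hW h6)), add_self])

end Lin

/-- the four-group generated by `z` and `t` -/
def Zc (z t u : G) : Prop := u = 1 ∨ u = z ∨ u = t ∨ u = t * z

theorem Zc.comm {u c : G} (h : Zc z t u) (h1 : c * z = z * c) (h2 : c * t = t * c) :
    Commute c u := by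
  rcases h with rfl | rfl | rfl | rfl
  exacts [Commute.one_right _, h1, h2, Commute.mul_right h2 h1]

theorem Zc.mem {u : G} (h : Zc z t u) {K : Subgroup G} (h1 : z ∈ K) (h2 : t ∈ K) : u ∈ K := by
  rcases h with rfl | rfl | rfl | rfl
  exacts [one_mem _, h1, h2, mul_mem h2 h1]

theorem Zc.cz (ip : IP z t) {u : G} (h : Zc z t u) : u * z = z * u :=
  ip.lx.cen u (h.mem ip.lx.mem ip.mem)

theorem Zc.ct (ip : IP z t) {u : G} (h : Zc z t u) : u * t = t * u :=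
  ip.lxS.cen u (h.mem ip.mem' ip.lxS.mem)

theorem Zc.sq (ip : IP z t) {u : G} (h : Zc z t u) : u * u = 1 := by
  rcases h with rfl | rfl | rfl | rfl
  exacts [one_mul _, ip.lx.zz, ip.tt, ip.mul_z.tt]

theorem Zc.comm_iff (ip : IP z t) {u u' c c' : G} (h : Zc z t u) (h' : Zc z t u')
    (h1 : c * z = z * c) (h2 : c * t = t * c) (h3 : c' * z = z * c') (h4 : c' * t = t * c') :
    Commute (c * u) (c' * u') ↔ Commute c c' := by
  unfold Commute SemiconjBy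
  rw [(h.comm h3 h4).symm.mul_mul_mul_comm, (h'.comm h1 h2).symm.mul_mul_mul_comm,
    (h'.comm (h.cz ip) (h.ct ip)).eq, mul_left_inj]

theorem Zc.sq_iff (ip : IP z t) {u c : G} (h : Zc z t u) (h1 : c * z = z * c)
    (h2 : c * t = t * c) : c * u * (c * u) = 1 ↔ c * c = 1 := by
  rw [(h.comm h1 h2).symm.mul_mul_mul_comm, h.sq ip, mul_one]

/-- the correspondence between `C_{Q_t}(z)` and `C_{Q_z}(t)` -/
structure Rel (z t a b : G) : Prop where
  ha : a ∈ O2C t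
  az : a * z = z * a
  hb : b ∈ O2C z
  bt : b * t = t * b
  ab : a * b ∈ O2C (t * z)

theorem rel_of (ip : IP z t) {e a : G} (he : e ∈ O2C z) (et : e * t * e⁻¹ = t * z)
    (ha : a ∈ O2C t) (az : a * z = z * a) : Rel z t a (a⁻¹ * (e * a * e⁻¹)) := by
  have h1 : e * a * e⁻¹ ∈ O2C (t * z) := fam_O2C.conj_mem' et ha
  refine ⟨ha, az, ?_, ?_, by rwa [mul_inv_cancel_left]⟩
  · have := mul_mem (ip.lx.conj_mem (cinv az) he) (inv_mem he)
    simpa [mul_assoc] using this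
  · refine cmul (cinv (ip.lxS.cen a ha)) ?_
    have h2 : Commute (e * a * e⁻¹) (t * z) := ip.mul_z.lxS.cen _ h1
    have h3 : Commute (e * a * e⁻¹) z := cconj (ip.lx.cen e he) az
    simpa using (h2.mul_right h3.inv_right).eq

theorem exists_rel (ip : IP z t) {a : G} (ha : a ∈ O2C t) (az : a * z = z * a) :
    ∃ b, Rel z t a b := by
  obtain ⟨e, he, et⟩ := ip.exists_x
  exact ⟨_, rel_of ip he et ha az⟩

namespace Rel

variable {a b a' b' : G}

theorem symm (ip : IP z t) (r : Rel z t a b) : Rel t z b a := by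
  refine ⟨r.hb, r.bt, r.ha, r.az, ?_⟩
  have := ip.mul_z.lxS.conj_mem (c := a⁻¹)
    (cinv (Commute.mul_right (ip.lxS.cen a r.ha) r.az).eq) r.ab
  rw [← ip.tz]
  simpa [mul_assoc] using this

theorem uniq (h : TR z) (ip : IP z t) (r : Rel z t a b) (r' : Rel z t a b') :
    Zc z t (b⁻¹ * b') := by
  rcases h.triv _ ip.mul_z _ (mul_mem (inv_mem r.hb) r'.hb)
    (by simpa [mul_assoc] using mul_mem (inv_mem r.ab) r'.ab) with e | e | e | e
  exacts [Or.inl e, Or.inr (Or.inl e), Or.inr (Or.inr (Or.inr e)),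
    Or.inr (Or.inr (Or.inl (by rw [e, mul_assoc, ip.lx.zz, mul_one])))]

theorem mul_Z (ip : IP z t) (r : Rel z t a b) {u : G} (hu : Zc z t u) : Rel z t a (b * u) :=
  ⟨r.ha, r.az, mul_mem r.hb (hu.mem ip.lx.mem ip.mem), cmul r.bt (hu.ct ip), by
    rw [← mul_assoc]
    refine mul_mem r.ab (hu.mem ip.mul_z.mem' ?_)
    simpa using mul_mem ip.mul_z.lxS.mem (inv_mem ip.mul_z.mem')⟩

theorem sg (h : TR z) (ip : IP z t) (r : Rel z t a b) (d : VD (O2C z) z V) :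
    Sg d (d.p t) (d.p b) a := by
  obtain ⟨e, he, et⟩ := ip.exists_x
  obtain ⟨w, h1, h2⟩ := exists_sg ip h.card d r.ha r.az
  have r' := rel_of ip he et r.ha r.az
  have h3 : d.B (d.p e) (d.p t) ≠ 0 := by
    rw [Ne, d.B_eq_zero he ip.mem]
    intro e'
    rw [conj_of_comm e'.symm] at et
    exact ip.lx.toXS.mul_z_ne t et.symm
  have h4 : d.p (a⁻¹ * (e * a * e⁻¹)) = d.ρ a (d.p e) + d.p e := by
    rw [← ip.ρ_inv d r.ha r.az, ← d.p_comm (cinv r.az) he]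
    congr 1; group
  have h5 := r'.uniq h ip r
  have h6 : d.p b = d.ρ a (d.p e) + d.p e + d.p ((a⁻¹ * (e * a * e⁻¹))⁻¹ * b) := by
    rw [← h4, ← d.p_mul r'.hb (h5.mem ip.lx.mem ip.mem), mul_inv_cancel_left]
  have h7 := sg_add h2 h1 (ip.q_pt d)
  have h8 : d.p b = d.ρ a (d.p e) + d.p e ∨ d.p b = d.ρ a (d.p e) + d.p e + d.p t := by
    rcases h5 with e' | e' | e' | e' <;> rw [e'] at h6
    · left; rw [h6, d.p_one, add_zero]
    · left; rw [h6, d.p_z, add_zero]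
    · exact Or.inr h6
    · right; rw [h6, d.p_mul_z ip.mem]
  rcases sg_one d h2 h3 with e1 | e1 <;> rcases h8 with e2 | e2
  · rwa [e2, ← e1]
  · rwa [e2, ← e1]
  · rwa [e1, add_add_cancel', ← e2] at h7
  · rwa [e2, ← e1]

theorem key (h : TR z) (ip : IP z t) {e : G} (he : e ∈ O2C z) (et : e * t * e⁻¹ = t * z)
    (r : Rel z t a b) : ∃ u, Zc z t u ∧ a * b = e * a * e⁻¹ * u ∧
      e * a * e⁻¹ * z = z * (e * a * e⁻¹) ∧ e * a * e⁻¹ * t = t * (e * a * e⁻¹) := by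
  have r' := rel_of ip he et r.ha r.az
  refine ⟨_, r'.uniq h ip r, by group, cconj (ip.lx.cen e he) r.az, ?_⟩
  simpa using cmul (ip.lxS.cen a r.ha) r'.bt

theorem comm1 (h : TR z) (ip : IP z t) (r : Rel z t a b) (r' : Rel z t a' b') :
    Commute (a * b) (a' * b') ↔ Commute a a' := by
  obtain ⟨e, he, et⟩ := ip.exists_x
  obtain ⟨u, h1, h2, h3, h4⟩ := r.key h ip he et
  obtain ⟨u', k1, k2, k3, k4⟩ := r'.key h ip he et
  rw [h2, k2, h1.comm_iff ip k1 h3 h4 k3 k4]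
  exact conj_comm_iff

theorem sq1 (h : TR z) (ip : IP z t) (r : Rel z t a b) : a * b * (a * b) = 1 ↔ a * a = 1 := by
  obtain ⟨e, he, et⟩ := ip.exists_x
  obtain ⟨u, h1, h2, h3, h4⟩ := r.key h ip he et
  rw [h2, h1.sq_iff ip h3 h4, ← conj_mul', conj_eq_one_iff]

theorem sq (h : TR z) (ip : IP z t) (r : Rel z t a b) : b * b = 1 ↔ a * a = 1 := by
  rw [← r.sq1 h ip, ← (r.symm ip).sq1 (h.of_cj ip.cj) ip.symm,
    show a * b * (a * b) = a * (b * a * (b * a)) * a⁻¹ by group, conj_eq_one_iff]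

theorem swap (h : TR z) (ip : IP z t) (r : Rel z t a b) : ∃ u, Zc z t u ∧ b * a = a * b * u := by
  refine ⟨(a * b)⁻¹ * (b * a), h.triv t ip _ ?_ ?_, by group⟩
  · simpa [mul_assoc] using mul_mem (inv_mem r.hb) (ip.lx.conj_mem (cinv r.az) r.hb)
  · simpa [mul_assoc] using mul_mem (ip.lxS.conj_mem (cinv r.bt) (inv_mem r.ha)) r.ha

theorem comm (h : TR z) (ip : IP z t) (r : Rel z t a b) (r' : Rel z t a' b') :
    Commute b b' ↔ Commute a a' := by
  obtain ⟨u, h1, h2⟩ := r.swap h ip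
  obtain ⟨u', k1, k2⟩ := r'.swap h ip
  rw [← r.comm1 h ip r', ← (r.symm ip).comm1 (h.of_cj ip.cj) ip.symm (r'.symm ip), h2, k2]
  exact h1.comm_iff ip k1 (cmul r.az (ip.lx.cen b r.hb)) (cmul (ip.lxS.cen a r.ha) r.bt)
    (cmul r'.az (ip.lx.cen b' r'.hb)) (cmul (ip.lxS.cen a' r'.ha) r'.bt)

theorem conj (h : TR z) (ip : IP z t) (r : Rel z t a b) {y : G} (hy : y ∈ O2C z)
    (yt : y * t = t * y) (yb : y * b = b * y) : a * y * a⁻¹ = y ∨ a * y * a⁻¹ = y * z := by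
  obtain ⟨d⟩ := exists_VD ip.lx
  refine (d.ρ_fix r.az hy).1 ?_
  rw [r.sg h ip d, (d.B_eq_zero hy ip.mem).2 yt, (d.B_eq_zero hy r.hb).2 yb]
  simp

theorem cen (h : TR z) (ip : IP z t) (r : Rel z t a b) {y : G} (hy : y ∈ O2C z)
    (yt : y * t = t * y) (yb : y * b = b * y) : y * a = a * y := by
  obtain ⟨a', r'⟩ := exists_rel ip.symm hy yt
  rcases r.conj h ip hy yt yb with e | e
  · exact comm_of_conj e
  rcases r'.conj (h.of_cj ip.cj) ip.symm r.ha r.az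
    ((r.comm h ip (r'.symm ip.symm)).1 yb.symm) with e' | e'
  · exact (comm_of_conj e').symm
  refine absurd ?_ ip.ne
  have h1 : y⁻¹ * (a * y * a⁻¹) = z := by rw [e]; group
  have h2 : t = a⁻¹ * (y * a * y⁻¹) := by rw [e']; group
  have h3 : y * a * z * (y * a)⁻¹ = z :=
    conj_of_comm (cmul (ip.lx.cen y hy) r.az).symm
  rw [← ip.lx.toXS.inv_z, ← conj_of_comm (c := a⁻¹ * y) (x := z)
    (cmul (cinv r.az) (ip.lx.cen y hy)).symm, ← h1, h2]
  group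

end Rel

/-- `x` and `s` are conjugates of `t` inside `Q_t` -/
structure Tri (x t s w : G) : Prop where
  tr : TR x
  ip : IP x t
  ss : s * s = 1
  nm : s ∉ O2C x
  rel : Rel x t s w

namespace Tri

variable {x s w : G} (H : Tri x t s w)
include H

theorem ip' : IP s t := ((H.tr.of_cj H.ip.cj).ip H.rel.ha H.ss (fun e => H.nm (e ▸ one_mem _))
  fun e => H.nm (e ▸ H.ip.mem)).symm

theorem tr' : TR s := H.tr.of_cj (H.ip.cj.trans H.ip'.cj.symm)

theorem nm' : x ∉ O2C s := fun e => H.nm (H.tr'.ip e H.ip.lx.zz H.ip.lx.ne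
  fun e' => H.nm (e' ▸ H.ip.lx.mem)).mem'

theorem symm : ∃ w', Tri s t x w' := by
  obtain ⟨w', r⟩ := exists_rel H.ip' H.ip.mem' H.rel.az.symm
  exact ⟨w', H.tr', H.ip', H.ip.lx.zz, H.nm', r⟩

theorem comm {y k : G} (hy : y ∈ O2C x) (ys : y * s = s * y) (hk : k ∈ O2C x) (hk' : k ∈ O2C s) :
    y * k = k * y := by
  by_contra hn
  have := H.tr'.lx.conj_mem ys hk'
  rw [H.ip.lx.toXS.conj_of_ne hy hk hn] at this
  exact H.nm' ((mul_mem_cancel_left hk').1 this)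

theorem cen (d : VD (O2C x) x V) {y : G} (hy : y ∈ O2C x) (h1 : d.B (d.p y) (d.p t) = 0)
    (h2 : d.B (d.p y) (d.p w) = 0) : y * s = s * y :=
  H.rel.cen H.tr H.ip hy ((d.B_eq_zero hy H.ip.mem).1 h1) ((d.B_eq_zero hy H.rel.hb).1 h2)

theorem span (d : VD (O2C x) x V) {k : G} (hk : k ∈ O2C x) (hk' : k ∈ O2C s) :
    d.p k ∈ Submodule.span (ZMod 2) {d.p t, d.p w} :=
  mem_span_two.2 (eq_of_perp_two fun u h1 h2 => by
    obtain ⟨y, hy, rfl⟩ := d.p_surj u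
    exact (d.B_eq_zero hy hk).2 (H.comm hy (H.cen d hy h1 h2) hk hk'))

theorem exists_k (d : VD (O2C x) x V) {y : G} (hy : y ∈ O2C s) (yx : y * x = x * y)
    (yy : y * y = 1) : ∃ k ∈ O2C x, k ∈ O2C s ∧ d.p k ≠ 0 ∧ ∀ v, d.B v (d.p k) = 0 →
      d.ρ y v + v = 0 ∨ d.ρ y v + v = d.p k := by
  have y2 : y * y ∈ O2C x := yy ▸ one_mem _
  have h1 : ∀ v, d.B v (d.p t) = 0 → d.B v (d.p w) = 0 →
      ∃ k ∈ O2C x, k ∈ O2C s ∧ d.ρ y v + v = d.p k := fun v h1 h2 => by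
    obtain ⟨b, hb, rfl⟩ := d.p_surj v
    exact ⟨_, d.comm_mem yx hb, mul_mem (H.tr'.lx.conj_mem (H.cen d hb h1 h2) hy) (inv_mem hy),
      (d.p_comm' yx hb).symm⟩
  obtain ⟨k, hk, hk', k0, h2⟩ : ∃ k ∈ O2C x, k ∈ O2C s ∧ d.p k ≠ 0 ∧ ∀ v, d.B v (d.p t) = 0 →
      d.B v (d.p w) = 0 → d.ρ y v + v = 0 ∨ d.ρ y v + v = d.p k := by
    by_contra hn
    push Not at hn
    obtain ⟨v₁, a1, a2, a3, -⟩ := hn t H.ip.mem H.ip'.mem (H.ip.pt_ne d)
    obtain ⟨k₁, b1, b2, b3⟩ := h1 v₁ a1 a2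
    obtain ⟨v₂, c1, c2, c3, c4⟩ := hn k₁ b1 b2 (b3 ▸ a3)
    obtain ⟨k₂, d1, d2, d3⟩ := h1 v₂ c1 c2
    have e1 := H.span d b1 b2
    have e2 := H.span d d1 d2
    exact rank_one d (card_V d H.tr.card) yx y2 b3 d3 (b3 ▸ a3) (d3 ▸ c3) (d3 ▸ c4)
      (B_span d e1 a1 a2) (B_span d e2 a1 a2) (B_span d e1 c1 c2) (B_span d e2 c1 c2)
  refine ⟨k, hk, hk', k0, fun v hv => ?_⟩
  by_contra hn
  have h3 : d.ρ y v + v ∈ Submodule.span (ZMod 2) {d.p t, d.p w} :=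
    mem_span_two.2 (eq_of_perp_two fun u e1 e2 => by
      rw [d.B_symm, B_com_sq yx y2]
      rcases h2 u e1 e2 with e | e <;> rw [e]
      exacts [map_zero _, hv])
  have h4 := q_span d h3 (H.ip.q_pt d)
    ((d.q_eq_zero H.rel.hb).2 ((H.rel.sq H.tr H.ip).2 H.ss))
    ((d.B_eq_zero H.ip.mem H.rel.hb).2 H.rel.bt.symm)
  rw [q_com yx] at h4
  obtain ⟨h5, h6⟩ := B_gen d (H.span d hk hk') h3 k0 (not_or.1 hn).1 (not_or.1 hn).2 hv h4
  exact hn (h2 v h5 h6)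

theorem main (d : VD (O2C x) x V) {y : G} (hy : y ∈ O2C x) (ys : y * s = s * y)
    (yy : y * y = 1) : d.p y ∈ Submodule.span (ZMod 2) {d.p t, d.p w} := by
  obtain ⟨w', H'⟩ := H.symm
  obtain ⟨ds⟩ := exists_VD H'.ip.lx
  obtain ⟨k, hk', hk, k0, h1⟩ := H'.exists_k ds hy ys yy
  have yk := H.comm hy ys hk hk'
  have kk : k * k = 1 := (H.ip.lx.toXS.sq hk).resolve_right fun e => H.nm' (e ▸ mul_mem hk' hk')
  rw [Ne, ds.p_eq_zero hk', not_or] at k0
  have i1 : IP s k := H'.tr.ip hk' kk k0.1 k0.2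
  have i2 : IP x k := H.tr.ip hk kk k0.1 fun e => H.nm' (e ▸ hk')
  have hK := H.tr.of_cj i2.cj
  have hs := H.span d hk hk'
  obtain ⟨s', hs'⟩ := exists_B_ne (d := ds) (i1.pt_ne ds)
  obtain ⟨w₁, a1, -, a2, -⟩ := sg_of ys (yy ▸ one_mem _) (i1.q_pt ds) (z2_ne hs')
    (i1.ρ_pt' ds ys yk) h1
  obtain ⟨a, ha, as, a3⟩ := H'.tr.sg ds i1 a1
  have hg : a⁻¹ * y ∈ O2C s := ds.mem_of_ρ (cmul (cinv as) ys) fun v => by
    rw [ds.ρ_mul (cinv as) ys, a2, ← a3, ds.ρ_inv_ρ as]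
  have ak := cinv (i1.lxS.cen a ha)
  obtain ⟨dk⟩ := exists_VD hK.lx
  obtain ⟨w₂, -, b1⟩ := exists_sg i1.symm hK.card dk hg (cmul ak yk)
  obtain ⟨b, r⟩ := exists_rel i2.symm hy yk
  obtain ⟨v, v1, v2⟩ := exists_sep_one (d := dk) (i2.symm.pt_ne dk) (s := dk.p s) fun e =>
    H.nm' (by
      rcases (dk.p_eq_iff i2.mem' i1.mem').1 e with e | e <;> rw [e]
      exacts [i1.lx.mem, mul_mem i1.lx.mem hk'])
  have b2 := sg_zero dk b1 v1
  rw [dk.ρ_mul ak yk, dk.ρ_Q (inv_mem ha)] at b2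
  have b3 := sg_one dk (r.sg hK i2.symm dk) v2
  have key : ∀ c ∈ O2C k, dk.p b = dk.p c ∨ dk.p b = dk.p c + dk.p x → Rel k x y c := by
    intro c hc e
    have : Zc k x (b⁻¹ * c) := by
      have h2 := mul_mem (inv_mem r.hb) hc
      have h3 : dk.p (b⁻¹ * c) = dk.p b + dk.p c := by
        rw [dk.p_mul (inv_mem r.hb) hc, dk.p_inv r.hb]
      rcases e with e | e <;> rw [e] at h3
      · rw [add_self, dk.p_eq_zero h2] at h3
        exact h3.imp_right Or.inl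
      · rw [add_comm (dk.p c), add_add_cancel', dk.p_eq_iff h2 i2.mem'] at h3
        exact Or.inr (Or.inr h3)
    simpa using r.mul_Z i2.symm this
  rcases b2 with e | e <;> rw [e] at b3
  · have r' := (key 1 (one_mem _) (by rwa [dk.p_one])).symm i2.symm
    rcases r'.uniq H.tr i2 ⟨one_mem _, by simp, one_mem _, by simp, by simp⟩ with e | e | e | e <;>
      rw [← d.p_inv hy, ← mul_one y⁻¹, e]
    exacts [d.p_one ▸ zero_mem _, d.p_z ▸ zero_mem _, hs, (d.p_mul_z hk).symm ▸ hs]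
  · have r' := (key s i1.mem' b3).symm i2.symm
    obtain ⟨u, hu⟩ := exists_B_ne (d := d) (i2.pt_ne d)
    have h2 := sg_span d (H.rel.sg H.tr H.ip d) u
    rcases sg_one d (r'.sg H.tr i2 d) hu with e | e <;> rw [e]
    exacts [h2, add_mem h2 hs]

end Tri

theorem n1 (h : TR z) (d : VD (O2C z) z V) {a b c : V} (a0 : a ≠ 0) (b0 : b ≠ 0) (ba : b ≠ a)
    (c0 : ¬ (c = 0 ∨ c = a ∨ c = b ∨ c = a + b)) (qa : d.q a = 0) (qb : d.q b = 0) (qc : d.q c = 0)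
    (ab : d.B a b = 0) (ac : d.B a c = 0) (bc : d.B b c = 0) : False := by
  obtain ⟨t, ip, rfl⟩ := h.exists_ip d qa a0
  obtain ⟨w, hw, rfl⟩ := d.p_surj b
  obtain ⟨y, hy, rfl⟩ := d.p_surj c
  obtain ⟨s, r⟩ := exists_rel ip.symm hw ((d.B_eq_zero ip.mem hw).1 ab).symm
  have r' := r.symm ip.symm
  have H : Tri z t s w := ⟨h, ip, (r'.sq h ip).1 ((d.q_eq_zero hw).1 qb), fun hs => by
    obtain ⟨v, hv⟩ := exists_B_ne (d := d) a0
    have := sg_one d (r'.sg h ip d) hv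
    rw [d.ρ_Q hs, add_self, zero_add] at this
    exact this.elim b0 ba, r'⟩
  exact c0 (mem_span_two.1 (H.main d hy (H.cen d hy (by rwa [d.B_symm]) (by rwa [d.B_symm]))
    ((d.q_eq_zero hy).1 qc)))

end Cfsg.Agent.H88.W3
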